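import Cfsg.Agent.H85.L3K

/-! Group-theoretic and linear tools for the geometric maximal subgroups in dimension five. -/

set_option autoImplicit false
set_option linter.unusedSectionVars false
set_option linter.style.haveILetI false

namespace Cfsg.Agent.G5

open Cfsg Cfsg.Geo Cfsg.Agent.H98 Cfsg.Agent.H99 Matrix

section Grp

variable {G : Type*} [Group G] [Finite G]

theorem small5 (h : ¬ 25 ∣ Nat.card G) {a b : G} (hab : a * b = b * a) (ha : a ^ 5 = 1)
    (hb : b ^ 5 = 1) : a = 1 ∨ ∃ k : ℕ, b = a ^ k := by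
  haveI : Fact (Nat.Prime 5) := ⟨by norm_num⟩
  by_cases a1 : a = 1
  · exact Or.inl a1
  right
  let A : Subgroup G := Subgroup.closure {a, b}
  have hc : ∀ x ∈ A, ∀ y ∈ A, x * y = y * x := by
    have : IsMulCommutative A := Subgroup.isMulCommutative_closure (by
      rintro x (rfl | rfl) y (rfl | rfl)
      exacts [rfl, hab, hab.symm, rfl])
    exact fun x hx y hy => congrArg Subtype.val (this.is_comm.comm ⟨x, hx⟩ ⟨y, hy⟩)
  have h5 : ∀ x ∈ A, x ^ 5 = 1 := fun x hx => by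
    induction hx using Subgroup.closure_induction with
    | mem x hx => rcases hx with rfl | rfl; exacts [ha, hb]
    | one => simp
    | mul x y hx hy h1 h2 => rw [Commute.mul_pow (hc x hx y hy), h1, h2, one_mul]
    | inv x _ h1 => rw [inv_pow, h1, inv_one]
  have hp : IsPGroup 5 A := fun x => ⟨1, Subtype.ext (by simpa using h5 x x.2)⟩
  obtain ⟨n, hn⟩ := hp.exists_card_eq
  have hn1 : n ≤ 1 := by
    by_contra h2
    exact h ((pow_dvd_pow 5 (show 2 ≤ n by omega)).trans (hn ▸ A.card_subgroup_dvd_card))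
  have ha' : a ∈ A := Subgroup.subset_closure (by simp)
  have e : Subgroup.zpowers a = A := Subgroup.eq_of_le_of_card_ge (Subgroup.zpowers_le.2 ha') (by
    rw [Nat.card_zpowers, orderOf_eq_prime ha a1, hn]
    exact (Nat.pow_le_pow_right (by norm_num) hn1).trans (by norm_num))
  have hb' : b ∈ Subgroup.zpowers a := e ▸ Subgroup.subset_closure (by simp)
  obtain ⟨k, hk⟩ := (mem_powers_iff_mem_zpowers.2 hb')
  exact ⟨k, hk.symm⟩

/-- conjugation action -/
@[reducible] def cact {C P : Subgroup G} (h : ∀ c ∈ C, ∀ x ∈ P, c * x * c⁻¹ ∈ P) : MulAction C P where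
  smul c x := ⟨c * x * (c : G)⁻¹, h c c.2 x x.2⟩
  one_smul x := Subtype.ext (show ((1 : C) : G) * x * ((1 : C) : G)⁻¹ = x by simp)
  mul_smul a b x := Subtype.ext (show ((a * b : C) : G) * x * ((a * b : C) : G)⁻¹ =
    a * (b * x * (b : G)⁻¹) * (a : G)⁻¹ by simp [mul_assoc])

theorem exists_fixed {p : ℕ} [Fact p.Prime] {C P : Subgroup G} (hC : IsPGroup p C)
    (h : ∀ c ∈ C, ∀ x ∈ P, c * x * c⁻¹ ∈ P) (hp : p ∣ Nat.card P) :
    ∃ s ∈ P, s ≠ 1 ∧ ∀ c ∈ C, c * s = s * c := by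
  letI := cact h
  obtain ⟨s, hs, h1⟩ := hC.exists_fixed_point_of_prime_dvd_card_of_fixed_point (α := P) hp
    (a := 1) fun c => Subtype.ext (show (c : G) * 1 * (c : G)⁻¹ = 1 by simp)
  exact ⟨s, s.2, fun e => h1 (Subtype.ext e.symm), fun c hc =>
    mul_inv_eq_iff_eq_mul.1 (congrArg Subtype.val (hs ⟨c, hc⟩))⟩

theorem count_free {C P T : Subgroup G} (h : ∀ c ∈ C, ∀ x ∈ P, c * x * c⁻¹ ∈ P)
    (h1 : ∀ c ∈ C, ∀ x ∈ T, c * x = x * c)
    (h2 : ∀ c ∈ C, c ≠ 1 → ∀ x ∈ P, c * x = x * c → x ∈ T) :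
    Nat.card P ≡ Nat.card (P ⊓ T : Subgroup G) [MOD Nat.card C] := by
  classical
  letI := cact h
  haveI := Fintype.ofFinite C
  haveI : ∀ c : C, Fintype (MulAction.fixedBy P c) := fun _ => Fintype.ofFinite _
  haveI : Fintype (MulAction.orbitRel.Quotient C P) := Fintype.ofFinite _
  have key := MulAction.sum_card_fixedBy_eq_card_orbits_mul_card_group C P
  have e1 : Fintype.card (MulAction.fixedBy P (1 : C)) = Nat.card P := by
    rw [← Nat.card_eq_fintype_card, MulAction.fixedBy_one_eq_univ, Nat.card_congr (Equiv.Set.univ _)]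
  have e2 : ∀ c : C, c ≠ 1 → Fintype.card (MulAction.fixedBy P c) = Nat.card (P ⊓ T : Subgroup G) := by
    intro c hc
    rw [← Nat.card_eq_fintype_card]
    exact Nat.card_congr
      { toFun := fun x => ⟨x.1, x.1.2, h2 c c.2 (fun e => hc (Subtype.ext e)) _ x.1.2
          (mul_inv_eq_iff_eq_mul.1 (congrArg Subtype.val x.2))⟩
        invFun := fun x => ⟨⟨x, x.2.1⟩, Subtype.ext (mul_inv_eq_iff_eq_mul.2 (h1 c c.2 x x.2.2))⟩
        left_inv := fun _ => rfl
        right_inv := fun _ => rfl }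
  rw [← Finset.add_sum_erase _ _ (Finset.mem_univ 1), e1,
    Finset.sum_congr rfl fun c hc => e2 c (Finset.ne_of_mem_erase hc), Finset.sum_const,
    Finset.card_erase_of_mem (Finset.mem_univ _), Finset.card_univ, smul_eq_mul] at key
  rw [Nat.card_eq_fintype_card (α := C)]
  obtain ⟨m, hm⟩ : ∃ m, Fintype.card C = m + 1 := ⟨_, (Nat.succ_pred_eq_of_pos Fintype.card_pos).symm⟩
  rw [hm, Nat.add_sub_cancel] at key
  rw [hm]
  refine Nat.ModEq.add_right_cancel' (m * Nat.card (P ⊓ T : Subgroup G)) ?_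
  rw [key, show ∀ a : ℕ, a + m * a = a * (m + 1) from fun a => by ring]
  exact (Nat.modEq_zero_iff_dvd.2 (dvd_mul_left _ _)).trans
    (Nat.modEq_zero_iff_dvd.2 (dvd_mul_left _ _)).symm

omit [Finite G] in
theorem card_quot_eq (Z P : Subgroup G) [Z.Normal] :
    Nat.card (P ⧸ Z.subgroupOf P) = Nat.card (P.map (QuotientGroup.mk' Z)) := by
  rw [← Subgroup.relIndex_ker, QuotientGroup.ker_mk']; rfl

theorem exists_period {α : Type*} [Finite α] (f : ℕ → α) :
    ∃ i m, 1 ≤ m ∧ m ≤ Nat.card α ∧ f (m + i) = f i := by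
  haveI := Fintype.ofFinite α
  obtain ⟨a, b, hab, e⟩ := Fintype.exists_ne_map_eq_of_card_lt
    (fun i : Fin (Nat.card α + 1) => f i) (by simp)
  wlog h : a < b generalizing a b
  · exact this b a hab.symm e.symm (lt_of_le_of_ne (not_lt.1 h) hab.symm)
  have := b.2
  have h' : (a : ℕ) < b := h
  exact ⟨a, b - a, by omega, by omega, by rw [Nat.sub_add_cancel h'.le]; exact e.symm⟩

end Grp

variable {F : Type*} [Field F] [Fintype F]

local notation "𝐆" => GL (Fin 5) F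
local notation "𝐙" => scalars (Fin 5) F
local notation "𝐒" => specialLinear (Fin 5) F
local notation "𝐌" => Matrix (Fin 5) (Fin 5) F

theorem pow5_of_scalar {z : 𝐆} (hz : z ∈ 𝐙) (h : z ∈ 𝐒) : z ^ 5 = 1 := by
  obtain ⟨c, hc⟩ := (mem_scalars_iff z).1 hz
  have h1 := mem_sl.1 h
  rw [hc, det_smul, det_one, mul_one, Fintype.card_fin] at h1
  apply Units.ext
  rw [Units.val_pow_eq_pow_val, hc, _root_.smul_pow, h1, one_pow, one_smul, Units.val_one]

theorem comm_mem_sl (a b : 𝐆) : a * b * a⁻¹ * b⁻¹ ∈ 𝐒 := mem_sl.2 (by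
  simp only [Units.val_mul, det_mul, Matrix.coe_units_inv, det_nonsing_inv, Ring.inverse_eq_inv']
  have := a.det_ne_zero
  have := b.det_ne_zero
  field_simp)

theorem comm_scalar {a b : 𝐆} (h : a * b * a⁻¹ * b⁻¹ ∈ 𝐙) :
    ∃ c : F, c ^ 5 = 1 ∧ (a : 𝐌) * b = c • ((b : 𝐌) * a) := by
  have h3 := pow5_of_scalar h (comm_mem_sl a b)
  obtain ⟨c, hc⟩ := mem_scalars_iff'.1 h
  refine ⟨c, ?_, ?_⟩
  · rw [hc, ← scal_pow, ← scal_one] at h3
    rw [← Units.val_pow_eq_pow_val, scal_injective h3, Units.val_one]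
  · have : a * b = scal (Fin 5) c * (b * a) := by rw [← hc]; group
    rw [← Units.val_mul, this, Units.val_mul, coe_scal, smul_mul_assoc, one_mul, Units.val_mul]

theorem comm_mem_Z {a b : 𝐆} {c : F} (h : (a : 𝐌) * b = c • ((b : 𝐌) * a)) :
    a * b * a⁻¹ * b⁻¹ ∈ 𝐙 := mem_scalars_of_coe_eq (c := c) (by
  rw [Units.val_mul, Units.val_mul, Units.val_mul, h, smul_mul_assoc, smul_mul_assoc,
    Units.mul_inv_cancel_right, Units.mul_inv])

theorem pow_comm_smul {A B : 𝐌} {c : F} (h : A * B = c • (B * A)) (n : ℕ) :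
    A ^ n * B = c ^ n • (B * A ^ n) := by
  induction n with
  | zero => simp
  | succ n ih =>
    rw [pow_succ', mul_assoc, ih, mul_smul_comm, ← mul_assoc, h, smul_mul_assoc, smul_smul,
      mul_assoc, ← pow_succ]

theorem pow5_comm {a b : 𝐆} (h : a * b * a⁻¹ * b⁻¹ ∈ 𝐙) : (a : 𝐌) ^ 5 * b = b * (a : 𝐌) ^ 5 := by
  obtain ⟨c, h1, h2⟩ := comm_scalar h
  rw [pow_comm_smul h2, h1, one_smul]

theorem card_Z : Nat.card 𝐙 = Fintype.card F - 1 := by
  rw [← Nat.card_eq_fintype_card, ← Nat.card_units]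
  exact (Nat.card_congr (MonoidHom.ofInjective scal_injective).toEquiv).symm

/-- the permutation action of the stabiliser of a frame -/
theorem exists_perm_hom {D : Fin 5 → Submodule F (Fin 5 → F)} (hD : IsMDecomposition 1 D) :
    ∃ π : decompositionStabilizer D →* Equiv.Perm (Fin 5),
      (∀ g h, π g = 1 → π h = 1 → (g : 𝐆) * h = h * g) ∧
      (∀ g, π g = 1 → ∃ (v : Fin 5 → F) (c : F), v ≠ 0 ∧ ((g : 𝐆) : 𝐌) *ᵥ v = c • v) ∧
      ∀ g : decompositionStabilizer D, (g : 𝐆) ∈ 𝐙 → π g = 1 := by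
  have hb : ∀ i, D i ≠ ⊥ := fun i e => by
    have := hD.finrank_eq i
    rw [e, finrank_bot] at this
    exact zero_ne_one this
  have hi := hD.indep.injective hb
  choose σ hσ using fun g : decompositionStabilizer D => g.2
  have k : ∀ g, σ g = 1 → ∀ i, ∃ c : F, ∀ w ∈ D i, ((g : 𝐆) : 𝐌) *ᵥ w = c • w := by
    intro g h1 i
    obtain ⟨v, -, hv⟩ := finrank_eq_one_iff'.1 (hD.finrank_eq i)
    have h2 : ((g : 𝐆) : 𝐌) *ᵥ v ∈ D i := by
      have := hσ g i
      rw [h1] at this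
      exact this.le ⟨v, v.2, rfl⟩
    obtain ⟨c, hc⟩ := hv ⟨_, h2⟩
    refine ⟨c, fun w hw => ?_⟩
    obtain ⟨a, ha⟩ := hv ⟨w, hw⟩
    have ha' : a • (v : Fin 5 → F) = w := congrArg Subtype.val ha
    have hc' : c • (v : Fin 5 → F) = ((g : 𝐆) : 𝐌) *ᵥ v := congrArg Subtype.val hc
    rw [← ha', mulVec_smul, ← hc', smul_comm]
  refine ⟨MonoidHom.mk' σ fun a b => Equiv.ext fun i => hi ?_, fun g h h1 h2 => ?_,
    fun g h1 => ?_, fun g hg => Equiv.ext fun i => hi ?_⟩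
  · rw [← hσ, Equiv.Perm.mul_apply, ← hσ, ← hσ, ← Submodule.map_comp, ← toLin'_mul]; rfl
  · apply Units.ext
    refine matrix_ext_mulVec fun v => ?_
    have hv : v ∈ iSup D := hD.iSup_eq_top ▸ trivial
    induction hv using Submodule.iSup_induction' with
    | mem i w hw =>
      obtain ⟨c, hc⟩ := k g h1 i
      obtain ⟨d, hd⟩ := k h h2 i
      simp only [Units.val_mul, ← mulVec_mulVec, hc w hw, hd w hw, mulVec_smul]
      rw [smul_comm]
    | zero => simp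
    | add x y _ _ hx hy => rw [mulVec_add, mulVec_add, hx, hy]
  · obtain ⟨c, hc⟩ := k g h1 0
    obtain ⟨v, hv, v0⟩ := Submodule.exists_mem_ne_zero_of_ne_bot (hb 0)
    exact ⟨v, c, v0, hc v hv⟩
  · obtain ⟨c, hc⟩ := (mem_scalars_iff _).1 hg
    refine (hσ g i).symm.trans ?_
    rw [hc, map_smul, toLin'_one, Submodule.map_smul _ _ _ c.ne_zero, Submodule.map_id]; rfl

theorem sim_comm {σ : F ≃+* F} {f : (Fin 5 → F) → (Fin 5 → F) → F} (hf : IsSesq σ 1 f) {g h : 𝐆}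
    (hg : g ∈ similarityGroup f) (hh : h ∈ similarityGroup f) {ω : F}
    (e : (g : 𝐌) * h = ω • ((h : 𝐌) * g)) : ω * σ ω = 1 := by
  obtain ⟨c, hc⟩ := hg
  obtain ⟨d, hd⟩ := hh
  obtain ⟨v, huv⟩ := (hf.nondeg (Pi.single 0 1) (by simp)).1
  have h1 := hc ((h : 𝐌) *ᵥ v) ((h : 𝐌) *ᵥ Pi.single 0 1)
  rw [mulVec_mulVec, mulVec_mulVec, e, smul_mulVec, smul_mulVec, hf.smul_left, hf.smul_right,
    ← mulVec_mulVec, ← mulVec_mulVec, hd, hc, hd] at h1
  apply mul_right_cancel₀ (mul_ne_zero (mul_ne_zero c.ne_zero d.ne_zero) huv)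
  linear_combination h1

theorem sub_comm {F₁ : Subfield F} {P g h : 𝐆} (hg : g ∈ subfieldSubgroup F₁ P)
    (hh : h ∈ subfieldSubgroup F₁ P) {ω : F} (e : (g : 𝐌) * h = ω • ((h : 𝐌) * g)) : ω ∈ F₁ := by
  obtain ⟨c, hc⟩ := H98.mem_subfieldSubgroup.1 hg
  obtain ⟨d, hd⟩ := H98.mem_subfieldSubgroup.1 hh
  set A := (c : F) • H98.cj P⁻¹ (g : 𝐌) with hA
  set B := (d : F) • H98.cj P⁻¹ (h : 𝐌) with hB
  have h1 : A * B = ω • (B * A) := by
    rw [hA, hB, smul_mul_smul_comm, smul_mul_smul_comm, ← map_mul, ← map_mul, e, map_smul,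
      smul_comm, mul_comm (c : F)]
  obtain ⟨i, j, hij⟩ : ∃ i j, (B * A) i j ≠ 0 := by
    by_contra hc
    push Not at hc
    have h3 : B * A = 0 := by ext i j; exact hc i j
    rw [hA, hB, smul_mul_smul_comm, ← map_mul, smul_eq_zero,
      map_eq_zero_iff _ (H98.cj P⁻¹).injective] at h3
    exact h3.elim (mul_ne_zero d.ne_zero c.ne_zero) (Units.ne_zero (h * g))
  have h2 : (A * B) i j ∈ F₁ := by
    rw [Matrix.mul_apply]; exact F₁.sum_mem fun m _ => F₁.mul_mem (hc _ _) (hd _ _)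
  have h3 : (B * A) i j ∈ F₁ := by
    rw [Matrix.mul_apply]; exact F₁.sum_mem fun m _ => F₁.mul_mem (hd _ _) (hc _ _)
  rw [h1, Matrix.smul_apply, smul_eq_mul] at h2
  have := F₁.div_mem h2 h3
  rwa [mul_div_cancel_right₀ _ hij] at this

section Fld

variable {K : Subalgebra F (Matrix (Fin 5) (Fin 5) F)} (hK : IsFieldSubalgebra 5 K)
include hK

theorem exists_gal : ∃ ρ : subalgebraNormalizer K →* (K ≃ₐ[F] K), Nat.card (K ≃ₐ[F] K) = 5 ∧
    ∀ g, ρ g = 1 → ((g : 𝐆) : 𝐌) ∈ K := by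
  letI : Field K := (isField_of_isFld hK.comm hK.inv).toField
  obtain ⟨ρ, hρ⟩ := H10.exists_galHom (H := subalgebraNormalizer K) le_rfl
  refine ⟨ρ, by rw [IsGalois.card_aut_eq_finrank, hK.finrank_eq], fun g h1 => ?_⟩
  refine H10.mem_of_comm_field (by norm_num) hK fun k hk => ?_
  have := hρ g ⟨k, hk⟩
  rw [h1] at this
  exact (cj_eq_iff _ _ _).1 this.symm

theorem pow5_mem {g : 𝐆} (hg : g ∈ subalgebraNormalizer K) : (g : 𝐌) ^ 5 ∈ K := by
  obtain ⟨ρ, h1, h2⟩ := exists_gal hK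
  exact h2 (⟨g, hg⟩ ^ 5) (by
    have := pow_card_eq_one' (x := ρ ⟨g, hg⟩)
    rwa [h1, ← map_pow] at this)

theorem fld_le_of_mem {a : 𝐌} (ha : a ∈ K) (hn : ∀ c : F, a ≠ c • 1) {B : Subalgebra F 𝐌}
    (hB : a ∈ B) : K ≤ B := by
  letI : Field K := (isField_of_isFld hK.comm hK.inv).toField
  haveI := Subalgebra.isSimpleOrder_of_finrank_prime F K (by rw [hK.finrank_eq]; norm_num)
  rcases eq_bot_or_eq_top (B.comap K.val) with h | h
  · have : (⟨a, ha⟩ : K) ∈ B.comap K.val := hB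
    rw [h, Algebra.mem_bot] at this
    obtain ⟨c, hc⟩ := this
    exact absurd ((congrArg Subtype.val hc).symm.trans (Algebra.algebraMap_eq_smul_one c)) (hn c)
  · intro x hx
    have : (⟨x, hx⟩ : K) ∈ B.comap K.val := h ▸ trivial
    exact this

theorem mem_of_comm {a x : 𝐌} (ha : a ∈ K) (hn : ∀ c : F, a ≠ c • 1) (h : x * a = a * x) : x ∈ K :=
  H10.mem_of_comm_field (by norm_num) hK fun _ hk =>
    fld_le_of_mem hK ha hn (B := Subalgebra.centralizer F {x}) (by rintro _ rfl; exact h) hk x rfl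

theorem fld_scalar {a : 𝐌} (ha : a ∈ K) {c : F} (h : (a - c • 1).det = 0) : a = c • 1 := by
  by_contra hn
  obtain ⟨y, -, hy⟩ := hK.inv _ (K.sub_mem ha (K.smul_mem K.one_mem c)) (sub_ne_zero.2 hn)
  have := congrArg det hy
  simp [h] at this

theorem inv_mem_fld {k : 𝐆} (hk : (k : 𝐌) ∈ K) : ((k⁻¹ : 𝐆) : 𝐌) ∈ K := by
  obtain ⟨y, hy, e⟩ := hK.inv _ hk (Units.ne_zero k)
  rwa [← Units.eq_inv_of_mul_eq_one_left e]

theorem mem_fldNorm {k : 𝐆} (hk : (k : 𝐌) ∈ K) : k ∈ subalgebraNormalizer K := by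
  have h1 := inv_mem_fld hK hk
  refine fun x => ⟨fun hx => K.mul_mem (K.mul_mem hk hx) h1, fun hx => ?_⟩
  simpa [mul_assoc] using K.mul_mem (K.mul_mem h1 hx) hk

/-- the multiplicative group of `K` -/
def KU : Subgroup 𝐆 where
  carrier := {g | (g : 𝐌) ∈ K}
  one_mem' := K.one_mem
  mul_mem' := K.mul_mem
  inv_mem' := inv_mem_fld hK

theorem card_KU : Nat.card (KU hK) = Fintype.card F ^ 5 - 1 := by
  letI : Field K := (isField_of_isFld hK.comm hK.inv).toField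
  rw [← H10.card_fieldSub hK, ← Nat.card_units]
  refine (Nat.card_congr (Equiv.ofBijective
    (fun u : Kˣ => (⟨Units.map (K.val : K →* 𝐌) u, u.1.2⟩ : KU hK)) ⟨fun a b e => ?_, fun g => ?_⟩)).symm
  · exact Units.map_injective Subtype.val_injective (congrArg Subtype.val e)
  · exact ⟨Units.mk0 ⟨_, g.2⟩ fun e => Units.ne_zero _ (congrArg Subtype.val e),
      Subtype.ext (Units.ext rfl)⟩

theorem Z_le_KU : 𝐙 ≤ KU hK := fun z hz => by
  obtain ⟨c, hc⟩ := (mem_scalars_iff z).1 hz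
  exact show (z : 𝐌) ∈ K from hc ▸ K.smul_mem K.one_mem _

theorem exists_order {N : ℕ} (hN : N ∣ Fintype.card F ^ 5 - 1) :
    ∃ k : 𝐆, (k : 𝐌) ∈ K ∧ orderOf k = N := by
  letI : Field K := (isField_of_isFld hK.comm hK.inv).toField
  obtain ⟨g, hg⟩ := IsCyclic.exists_ofOrder_eq_natCard (α := Kˣ)
  rw [Nat.card_units, H10.card_fieldSub hK] at hg
  refine ⟨Units.map (K.val : K →* 𝐌) (g ^ (orderOf g / N)), (g ^ (orderOf g / N) : Kˣ).1.2, ?_⟩
  rw [orderOf_injective _ (Units.map_injective Subtype.val_injective)]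
  exact orderOf_pow_orderOf_div (orderOf_pos g).ne' (hg ▸ hN)

theorem scalar_of_pow5 {ω : F} (hω : IsPrimitiveRoot ω 5) {a : 𝐌} (ha : a ∈ K) (h : a ^ 5 = 1) :
    ∃ c : F, a = c • 1 := by
  letI : Field K := (isField_of_isFld hK.comm hK.inv).toField
  have h1 : IsPrimitiveRoot (algebraMap F K ω) 5 := hω.map_of_injective (algebraMap F K).injective
  have h2 : (⟨a, ha⟩ : K) ^ 5 = 1 := Subtype.ext h
  obtain ⟨i, -, hi⟩ := h1.eq_pow_of_pow_eq_one h2
  rw [← map_pow, Algebra.algebraMap_eq_smul_one] at hi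
  exact ⟨_, (congrArg Subtype.val hi).symm⟩

end Fld

end Cfsg.Agent.G5
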