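import Cfsg.Agent.G5.K
import Cfsg.Agent.S0280

/-! Orders of the residual socles in dimension five. -/

set_option autoImplicit false
set_option linter.style.haveILetI false

namespace Cfsg.Agent.G5

open Cfsg Cfsg.Geo Cfsg.Agent.H98

theorem card_l2_11 {G : Type*} [Group G]
    (e : Nonempty (G ≃* Matrix.ProjectiveSpecialLinearGroup (Fin 2) (ZMod 11))) :
    Nat.card G = 660 := by
  haveI : Fact (Nat.Prime 11) := ⟨by norm_num⟩
  have := H9.gcd_mul_card_psl_two (F := ZMod 11)
  rw [ZMod.card, show Nat.gcd 2 (11 - 1) = 2 by norm_num] at this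
  have h2 := Nat.card_congr e.some.toEquiv
  omega

theorem card_u42 {G : Type*} [Group G] (e : ∃ (K : Type) (_ : Field K) (_ : Fintype K),
    Fintype.card K = 4 ∧ Nonempty (G ≃* PSU 4 K 2)) : Nat.card G = 25920 := by
  obtain ⟨K, _, _, hK, ⟨e⟩⟩ := e
  have := S0280.result (q := 2) hK 4 (by decide)
  rw [show 2 ^ (4 * (4 - 1) / 2) * ∏ i ∈ Finset.range 4,
    (if Even i then 2 ^ (i + 1) + 1 else 2 ^ (i + 1) - 1) = 77760 by decide +kernel,
    show Nat.gcd 4 (2 + 1) = 1 by decide] at this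
  have h2 := Nat.card_congr e.toEquiv
  omega

theorem irr_of_ex {F : Type*} [Field F] {R : Subgroup (GL (Fin 5) F)}
    (hi : ActsAbsolutelyIrreducibly (matrixSet R))
    {W : Submodule F (Fin 5 → F)} (h : R ≤ subspaceStabilizer W) : W = ⊥ ∨ W = ⊤ :=
  irr_iff.2 hi.1 W fun _ hg v hv => (h hg v).1 hv

end Cfsg.Agent.G5
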