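import Cfsg.Agent.G5.A
import Cfsg.Agent.H98.ExtraCard

/-! The extraspecial group `5^(1+2)` in `GL₅(q)` and its normaliser. -/

set_option autoImplicit false
set_option linter.unusedSectionVars false
set_option linter.style.haveILetI false

namespace Cfsg.Agent.G5

open Cfsg Cfsg.Geo Cfsg.Agent.H98 Cfsg.Agent.H99 Matrix

variable {F : Type*} [Field F] [Fintype F]

local notation "𝐆" => GL (Fin 5) F
local notation "𝐙" => scalars (Fin 5) F
local notation "𝐒" => specialLinear (Fin 5) F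
local notation "𝐌" => Matrix (Fin 5) (Fin 5) F

instance normalZ : (𝐙).Normal := scalars_normal

/-- the projection onto `PGL₅` -/
abbrev pr (F : Type*) [Field F] : GL (Fin 5) F →* GL (Fin 5) F ⧸ scalars (Fin 5) F :=
  QuotientGroup.mk' _

theorem pr_eq_one {a : 𝐆} : pr F a = 1 ↔ a ∈ 𝐙 := QuotientGroup.eq_one_iff a

theorem pr_eq_iff {a b : 𝐆} : pr F a = pr F b ↔ a * b⁻¹ ∈ 𝐙 := by
  rw [← pr_eq_one, map_mul, map_inv, mul_inv_eq_one]

theorem pr_eq_of_smul {a b : 𝐆} {c : F} (h : (a : 𝐌) = c • (b : 𝐌)) : pr F a = pr F b :=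
  pr_eq_iff.2 (mem_scalars_of_coe_eq (c := c) (by
    rw [Units.val_mul, h, smul_mul_assoc, Units.mul_inv]))

theorem smul_of_pr_eq {a b : 𝐆} (h : pr F a = pr F b) : ∃ c : F, (a : 𝐌) = c • (b : 𝐌) := by
  obtain ⟨c, hc⟩ := (mem_scalars_iff _).1 (pr_eq_iff.1 h)
  exact ⟨c, by rw [← one_mul (b : 𝐌), ← smul_mul_assoc, ← hc, Units.val_mul,
    Units.inv_mul_cancel_right]⟩

theorem pr_comm_iff {a b : 𝐆} : Commute (pr F a) (pr F b) ↔ a * b * a⁻¹ * b⁻¹ ∈ 𝐙 := by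
  rw [Commute, SemiconjBy, ← map_mul, ← map_mul, pr_eq_iff, _root_.mul_inv_rev, ← mul_assoc]

theorem card_pr (P : Subgroup 𝐆) :
    Nat.card (P ⧸ (𝐙).subgroupOf P) = Nat.card (P.map (pr F)) := card_quot_eq _ P

theorem conj_pr {X P : Subgroup 𝐆} (h : ∀ g ∈ X, ∀ s ∈ P, g * s * g⁻¹ ∈ P) :
    ∀ g ∈ X.map (pr F), ∀ s ∈ P.map (pr F), g * s * g⁻¹ ∈ P.map (pr F) := by
  rintro _ ⟨g, hg, rfl⟩ _ ⟨s, hs, rfl⟩
  exact ⟨_, h g hg s hs, by simp⟩

/-- a Heisenberg pair -/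
structure XY (ω : F) (x y : 𝐆) : Prop where
  om : IsPrimitiveRoot ω 5
  x5 : x ^ 5 = 1
  y5 : y ^ 5 = 1
  xy : (x : 𝐌) * y = ω • ((y : 𝐌) * x)

/-- the cyclic shift -/
def yM (F : Type*) [Field F] : Matrix (Fin 5) (Fin 5) F := of fun i j => if i = j + 1 then 1 else 0

theorem mul_yM (A : 𝐌) (i j : Fin 5) : (A * yM F) i j = A i (j + 1) := by
  simp [yM, Matrix.mul_apply]

theorem yM_mul (A : 𝐌) (i j : Fin 5) : (yM F * A) (i + 1) j = A i j := by
  simp [yM, Matrix.mul_apply]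

namespace XY

variable {ω : F} {x y : GL (Fin 5) F} (h : XY ω x y)
include h

theorem swap : XY ω y x⁻¹ := ⟨h.om, h.y5, by rw [inv_pow, h.x5, inv_one], by
  rw [← Units.mul_right_inj x, mul_smul_comm, ← mul_assoc, ← mul_assoc, h.xy, smul_mul_assoc,
    Units.mul_inv_cancel_right, Units.mul_inv, one_mul]⟩

theorem x_ypow (n : ℕ) : (x : 𝐌) * (y : 𝐌) ^ n = ω ^ n • ((y : 𝐌) ^ n * x) := by
  induction n with
  | zero => simp
  | succ n ih =>
    rw [pow_succ, ← mul_assoc, ih, smul_mul_assoc, mul_assoc, h.xy, mul_smul_comm, smul_smul,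
      ← mul_assoc, ← pow_succ]

theorem exists_fix : ∃ v : Fin 5 → F, v ≠ 0 ∧ (x : 𝐌) *ᵥ v = v := by
  have h1 := congrArg (detMonoidHom.comp (Polynomial.aeval (x : 𝐌)).toMonoidHom)
    (X_pow_sub_C_eq_prod h.om (by norm_num) (one_pow 5))
  rw [map_prod] at h1
  have h2 : (x : 𝐌) ^ 5 = 1 := congrArg Units.val h.x5
  obtain ⟨i, hi, h3⟩ := Finset.prod_eq_zero_iff.1 (h1.symm.trans (by simp [h2]))
  obtain ⟨u, u0, hu⟩ := exists_mulVec_eq_zero_iff.2 (show ((x : 𝐌) - ω ^ i • (1 : 𝐌)).det = 0 by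
    simpa [Algebra.algebraMap_eq_smul_one, _root_.smul_pow] using h3)
  rw [sub_mulVec, smul_mulVec, one_mulVec, sub_eq_zero] at hu
  refine ⟨((y ^ (5 - i) : 𝐆) : 𝐌) *ᵥ u, fun e => u0 ((gl_mulVec_eq_zero _).1 e), ?_⟩
  rw [mulVec_mulVec, Units.val_pow_eq_pow_val, h.x_ypow, smul_mulVec, ← mulVec_mulVec, hu,
    mulVec_smul, smul_smul, ← pow_add, Nat.sub_add_cancel (Finset.mem_range.1 hi).le,
    h.om.pow_eq_one, one_smul]

theorem pow_inj : Function.Injective fun i : Fin 5 => ω ^ (i : ℕ) :=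
  fun a b e => Fin.ext (h.om.pow_inj a.2 b.2 e)

theorem exists_frame : ∃ P : 𝐆, (P : 𝐌) * diagonal (fun i : Fin 5 => ω ^ (i : ℕ)) = x * P ∧
    (P : 𝐌) * yM F = y * P := by
  obtain ⟨v, v0, hv⟩ := h.exists_fix
  let u : Fin 5 → Fin 5 → F := fun j => ((y ^ (j : ℕ) : 𝐆) : 𝐌) *ᵥ v
  have hu : ∀ j, (x : 𝐌) *ᵥ u j = ω ^ (j : ℕ) • u j := fun j => by
    simp only [u]
    rw [mulVec_mulVec, Units.val_pow_eq_pow_val, h.x_ypow, smul_mulVec, ← mulVec_mulVec, hv]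
  have hi : LinearIndependent F u := Module.End.eigenvectors_linearIndependent'
    (toLin' (x : 𝐌)) _ h.pow_inj u fun j => ⟨Module.End.mem_eigenspace_iff.2 (hu j),
      fun e => v0 ((gl_mulVec_eq_zero _).1 e)⟩
  obtain ⟨P, hP⟩ : IsUnit (of u)ᵀ := linearIndependent_cols_iff_isUnit.1 hi
  have k : ∀ (A : 𝐌) i j, (A * P) i j = (A *ᵥ u j) i := fun A i j => by rw [hP]; rfl
  refine ⟨P, ?_, ?_⟩
  · ext i j
    rw [k, hu, mul_diagonal, hP, mul_comm]; rfl
  · ext i j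
    rw [k, mul_yM, hP]
    simp only [u]
    rw [mulVec_mulVec, ← Units.val_mul, ← pow_succ', pow_eq_pow_mod _ h.y5]
    rfl

theorem x_mem_sl : x ∈ 𝐒 := by
  obtain ⟨P, h1, -⟩ := h.exists_frame
  have := congrArg det h1
  rw [det_mul, det_mul, mul_comm, mul_left_inj' P.det_ne_zero, det_diagonal,
    Fin.prod_univ_five] at this
  refine mem_sl.2 (this.symm.trans ?_)
  simp only [← pow_add]
  exact h.om.pow_eq_one_iff_dvd _ |>.2 (by decide)

theorem y_mem_sl : y ∈ 𝐒 := h.swap.x_mem_sl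

theorem scalar_of_comm {r : 𝐌} (h1 : r * x = x * r) (h2 : r * y = y * r) : ∃ c : F, r = c • 1 := by
  obtain ⟨P, p1, p2⟩ := h.exists_frame
  have k : ∀ {A B : 𝐌}, (P : 𝐌) * A = B * P → r * B = B * r →
      H98.cj P⁻¹ r * A = A * H98.cj P⁻¹ r := fun {A B} e1 e2 => by
    have : A = H98.cj P⁻¹ B := by
      rw [cj_apply, inv_inv, mul_assoc, ← e1, Units.inv_mul_cancel_left]
    rw [this, ← map_mul, ← map_mul, e2]
  have a := k p1 h1
  have b := k p2 h2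
  have e : H98.cj P⁻¹ r = H98.cj P⁻¹ r 0 0 • (1 : 𝐌) := by
    generalize H98.cj P⁻¹ r = s at a b
    have b' : ∀ i, s (i + 1) (i + 1) = s i i := fun i => by
      rw [← mul_yM s (i + 1) i, b, yM_mul]
    have b1 : s 1 1 = s 0 0 := b' 0
    have b2 : s 2 2 = s 1 1 := b' 1
    have b3 : s 3 3 = s 2 2 := b' 2
    have b4 : s 4 4 = s 3 3 := b' 3
    ext i j
    by_cases hij : i = j
    · subst hij
      fin_cases i <;> simp [b1, b2, b3, b4]
    · have := congrFun (congrFun a i) j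
      rw [mul_diagonal, diagonal_mul, mul_comm] at this
      rw [Matrix.smul_apply, one_apply_ne hij, smul_zero]
      by_contra h0
      exact hij (h.pow_inj (mul_right_cancel₀ h0 this)).symm
  exact ⟨_, (H98.cj P⁻¹).injective (by rw [map_smul, map_one]; exact e)⟩

theorem exists_d : ∃ d ∈ 𝐒, d ^ 5 = 1 ∧ d * x = x * d ∧ pr F (d * y) = pr F (x * y * d) := by
  obtain ⟨P, p1, p2⟩ := h.exists_frame
  have h5 := h.om.pow_eq_one
  have hd : (diagonal ![1, 1, ω, ω ^ 3, ω] : 𝐌).det = 1 := by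
    rw [det_diagonal, Fin.prod_univ_five]; simp; linear_combination h5
  let D : 𝐆 := GeneralLinearGroup.mkOfDetNeZero _ (hd ▸ one_ne_zero : _ ≠ (0 : F))
  have hD : (D : 𝐌) = diagonal ![1, 1, ω, ω ^ 3, ω] := rfl
  have q1 : (x : 𝐌) = H98.cj P (diagonal fun i : Fin 5 => ω ^ (i : ℕ)) := by
    rw [cj_apply, p1, Units.mul_inv_cancel_right]
  have q2 : (y : 𝐌) = H98.cj P (yM F) := by rw [cj_apply, p2, Units.mul_inv_cancel_right]
  have q3 : ((P * D * P⁻¹ : 𝐆) : 𝐌) = H98.cj P (diagonal ![1, 1, ω, ω ^ 3, ω]) := rfl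
  refine ⟨P * D * P⁻¹, conj_mem_sl (mem_sl.2 hd) P, Units.ext ?_, Units.ext ?_,
    pr_eq_of_smul (c := ω ^ 4) ?_⟩
  · rw [Units.val_pow_eq_pow_val, q3, ← map_pow, diagonal_pow, Units.val_one, ← map_one (H98.cj P),
      ← diagonal_one]
    congr 2
    ext i
    fin_cases i <;> simp [h5, ← pow_mul, pow_mul' ω 3 5]
  · rw [Units.val_mul _ x, Units.val_mul x, q3, q1, ← map_mul, ← map_mul, diagonal_mul_diagonal,
      diagonal_mul_diagonal]
    simp only [mul_comm]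
  · rw [Units.val_mul _ y, Units.val_mul (x * y), Units.val_mul x, q3, q1, q2, ← map_mul, ← map_mul,
      ← map_mul, ← map_smul]
    congr 1
    ext i j
    rw [Matrix.smul_apply, mul_diagonal, diagonal_mul, diagonal_mul, yM, of_apply]
    split_ifs with e
    · subst e
      fin_cases j <;> simp <;>
        first | linear_combination -h5 | linear_combination -ω * h5
              | linear_combination -ω ^ 3 * h5 | linear_combination -(ω ^ 6 + ω) * h5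
    · simp

theorem not_comm : x * y ≠ y * x := fun e => h.om.ne_one (by norm_num)
  (smul_left_injective F (Units.ne_zero (y * x))
    (h.xy.symm.trans ((congrArg Units.val e).trans (one_smul _ _).symm)))

theorem comm : Commute (pr F x) (pr F y) := pr_comm_iff.2 (comm_mem_Z h.xy)

theorem not_small : ¬ (pr F x = 1 ∨ ∃ k : ℕ, pr F y = pr F x ^ k) := by
  rintro (e | ⟨k, e⟩)
  · exact h.not_comm (scalars_comm (pr_eq_one.1 e) y)
  · obtain ⟨c, hc⟩ := smul_of_pr_eq (e.trans (map_pow _ _ _).symm)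
    refine h.not_comm (Units.ext ?_)
    rw [Units.val_mul, Units.val_mul, hc, mul_smul_comm, smul_mul_assoc, Units.val_pow_eq_pow_val,
      ← pow_succ, ← pow_succ']

theorem eq_pow {g : 𝐆} (h1 : Commute (pr F x) (pr F g)) (h2 : Commute (pr F y) (pr F g)) :
    ∃ a b : Fin 5, pr F g = pr F x ^ (a : ℕ) * pr F y ^ (b : ℕ) := by
  obtain ⟨c, c5, hc⟩ := comm_scalar (pr_comm_iff.1 h1)
  obtain ⟨d, d5, hd⟩ := comm_scalar (pr_comm_iff.1 h2.symm)
  obtain ⟨b, hb, rfl⟩ := h.om.eq_pow_of_pow_eq_one c5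
  obtain ⟨a, ha, rfl⟩ := h.om.eq_pow_of_pow_eq_one d5
  refine ⟨⟨a, ha⟩, ⟨b, hb⟩, ?_⟩
  rw [← map_pow, ← map_pow, ← map_mul, pr_eq_iff]
  set u : 𝐆 := x ^ a * y ^ b with hu
  have u1 : (x : 𝐌) * u = ω ^ b • ((u : 𝐌) * x) := by
    simp only [hu, Units.val_mul, Units.val_pow_eq_pow_val]
    rw [← mul_assoc, ← pow_succ', pow_succ, mul_assoc, h.x_ypow, mul_smul_comm, mul_assoc]
  have u2 : (u : 𝐌) * y = ω ^ a • ((y : 𝐌) * u) := by
    simp only [hu, Units.val_mul, Units.val_pow_eq_pow_val]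
    rw [mul_assoc, ← pow_succ, pow_succ', ← mul_assoc, pow_comm_smul h.xy, smul_mul_assoc,
      mul_assoc]
  obtain ⟨c, hc⟩ := h.scalar_of_comm (r := (g : 𝐌) * ((u⁻¹ : 𝐆) : 𝐌))
    (by
      rw [← Units.mul_left_inj u, mul_assoc _ (x : 𝐌), u1, mul_smul_comm, mul_assoc,
        Units.inv_mul_cancel_left, ← hc, mul_assoc, Units.inv_mul_cancel_right])
    (by
      rw [← Units.mul_left_inj u, mul_assoc (y : 𝐌), Units.inv_mul_cancel_right]
      apply smul_right_injective _ (pow_ne_zero a (h.om.ne_zero (by norm_num)))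
      simp only
      rw [← hd, mul_assoc, ← mul_smul_comm, ← u2, mul_assoc, Units.inv_mul_cancel_left])
  exact mem_scalars_of_coe_eq hc

end XY

/-- normal form of an extraspecial group of order `125` -/
structure Ex (R : Subgroup 𝐆) (ω : F) (x y : 𝐆) : Prop where
  xy : XY ω x y
  xm : x ∈ R
  ym : y ∈ R
  five : ∀ r ∈ R, r ^ 5 = 1
  mem : ∀ g, g ∈ R ↔ g ∈ 𝐒 ∧ Commute (pr F x) (pr F g) ∧ Commute (pr F y) (pr F g)

theorem exists_ex {R : Subgroup 𝐆} (hR : IsSymplecticTypeGroup 5 R)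
    (hi : ActsAbsolutelyIrreducibly (matrixSet R)) (hz : Nat.card (Subgroup.center R) = 5) :
    ∃ ω x y, Ex R ω x y := by
  haveI : Fact (Nat.Prime 5) := ⟨by norm_num⟩
  have hc := (card_sq_mul_card_center hR hi hz).2
  have h5 : ∀ r ∈ R, r ^ 5 = 1 := fun r hr => by
    have := Monoid.pow_exponent_eq_one (⟨r, hr⟩ : R)
    rw [hR.exponent_eq] at this
    exact congrArg Subtype.val this
  obtain ⟨x, hx, y, hy, hxy⟩ := exists_noncomm_of_span (by simp) (grpAlg_eq_top_of_absIrr hi)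
  obtain ⟨ω, h1, h2⟩ := comm_scalar (hc x hx y hy)
  have h : XY ω x y := ⟨IsPrimitiveRoot.iff_orderOf.2 (orderOf_eq_prime h1 fun e =>
    hxy (Units.ext (by simpa [e] using h2))), h5 x hx, h5 y hy, h2⟩
  have k : ∀ g, Commute (pr F x) (pr F g) → Commute (pr F y) (pr F g) →
      ∃ u ∈ R, u ∈ 𝐒 ∧ ∃ c : F, (g : 𝐌) = c • (u : 𝐌) := fun g a b => by
    obtain ⟨a, b, e⟩ := h.eq_pow a b
    rw [← map_pow, ← map_pow, ← map_mul] at e
    exact ⟨_, mul_mem (pow_mem hx _) (pow_mem hy _),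
      mul_mem (pow_mem h.x_mem_sl _) (pow_mem h.y_mem_sl _), smul_of_pr_eq e⟩
  refine ⟨ω, x, y, h, hx, hy, h5, fun g => ⟨fun hg => ?_, fun ⟨hS, a, b⟩ => ?_⟩⟩
  · have a := pr_comm_iff.2 (hc x hx g hg)
    have b := pr_comm_iff.2 (hc y hy g hg)
    obtain ⟨u, hu, uS, c, e⟩ := k g a b
    have := congrArg Units.val (h5 g hg)
    rw [Units.val_pow_eq_pow_val, e, _root_.smul_pow, ← Units.val_pow_eq_pow_val, h5 u hu] at this
    exact ⟨mem_sl.2 (by
      rw [e, det_smul, mem_sl.1 uS, mul_one, Fintype.card_fin]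
      simpa using congrFun (congrFun this 0) 0), a, b⟩
  · obtain ⟨u, hu, uS, c, e⟩ := k g a b
    have := mem_sl.1 hS
    rw [e, det_smul, mem_sl.1 uS, mul_one, Fintype.card_fin] at this
    obtain ⟨t, -, rfl⟩ := h.om.eq_pow_of_pow_eq_one this
    have hz : ((x * y * x⁻¹ * y⁻¹ : 𝐆) : 𝐌) = ω • 1 := by
      rw [Units.val_mul, Units.val_mul, Units.val_mul, h2, smul_mul_assoc, smul_mul_assoc,
        Units.mul_inv_cancel_right, Units.mul_inv]
    have : g = (x * y * x⁻¹ * y⁻¹) ^ t * u := Units.ext (by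
      rw [Units.val_mul, Units.val_pow_eq_pow_val, hz, _root_.smul_pow, one_pow, smul_mul_assoc,
        one_mul, e])
    rw [this]
    exact mul_mem (pow_mem (mul_mem (mul_mem (mul_mem hx hy) (inv_mem hx)) (inv_mem hy)) _) hu

theorem center_five {R : Subgroup 𝐆} (hR : IsLinearSymplecticTypeData 5 R) :
    Nat.card (Subgroup.center R) = 5 := by
  obtain ⟨_, _, -, -, h | h | h⟩ := hR.field
  exacts [h.2.2.1, absurd h.1 (by norm_num), absurd h.1 (by norm_num)]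

/-- `X` contains `R` and two elements acting as transvections on `R` modulo its centre -/
structure Tv (X R : Subgroup 𝐆) (x y d e : 𝐆) : Prop where
  le : R ≤ X
  dm : d ∈ X
  em : e ∈ X
  dx : d * x = x * d
  dy : pr F (d * y) = pr F (x * y * d)
  ey : e * y = y * e
  ex : pr F (e * x⁻¹) = pr F (y * x⁻¹ * e)

theorem Tv.mono {X Y R : Subgroup 𝐆} {x y d e : 𝐆} (h : Tv X R x y d e) (hY : X ≤ Y) :
    Tv Y R x y d e := ⟨h.le.trans hY, hY h.dm, hY h.em, h.dx, h.dy, h.ey, h.ex⟩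

namespace Ex

variable {R : Subgroup (GL (Fin 5) F)} {ω : F} {x y : GL (Fin 5) F} (h : Ex R ω x y)
include h

theorem swap : Ex R ω y x⁻¹ := ⟨h.xy.swap, h.ym, inv_mem h.xm, h.five, fun g => by
  rw [h.mem, map_inv, Commute.inv_left_iff, and_comm (a := Commute (pr F x) _)]⟩

theorem le_sl : R ≤ 𝐒 := fun g hg => ((h.mem g).1 hg).1

theorem pgroup : IsPGroup 5 R := fun g => ⟨1, Subtype.ext (by simpa using h.five g g.2)⟩

theorem eq_pow {g : 𝐆} (hg : g ∈ R) :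
    ∃ a b : Fin 5, pr F g = pr F x ^ (a : ℕ) * pr F y ^ (b : ℕ) :=
  h.xy.eq_pow ((h.mem g).1 hg).2.1 ((h.mem g).1 hg).2.2

theorem comm {a b : 𝐆} (ha : a ∈ R) (hb : b ∈ R) : Commute (pr F a) (pr F b) := by
  obtain ⟨i, j, e⟩ := h.eq_pow ha
  rw [e]
  exact (((h.mem b).1 hb).2.1.pow_left _).mul_left (((h.mem b).1 hb).2.2.pow_left _)

theorem card_le : Nat.card (R.map (pr F)) ≤ 25 := by
  refine (Nat.card_le_card_of_surjective (fun v : Fin 5 × Fin 5 =>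
    (⟨_, _, mul_mem (pow_mem h.xm v.1) (pow_mem h.ym v.2), rfl⟩ : R.map (pr F))) ?_).trans (by simp)
  rintro ⟨_, g, hg, rfl⟩
  obtain ⟨a, b, e⟩ := h.eq_pow hg
  exact ⟨(a, b), Subtype.ext (by simp [e])⟩

theorem five_dvd : 5 ∣ Nat.card (R.map (pr F)) := by
  haveI : Fact (Nat.Prime 5) := ⟨by norm_num⟩
  refine ((h.pgroup.map (pr F)).card_eq_or_dvd).resolve_left fun e => ?_
  exact h.xy.not_small (Or.inl (Subgroup.mem_bot.1
    (Subgroup.card_eq_one.1 e ▸ Subgroup.mem_map_of_mem (pr F) h.xm)))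

theorem exists_d : ∃ d ∈ subgroupNormalizer R ⊓ 𝐒, d ^ 5 = 1 ∧ d * x = x * d ∧
    pr F (d * y) = pr F (x * y * d) := by
  obtain ⟨d, h1, h2, h3, h4⟩ := h.xy.exists_d
  refine ⟨d, ⟨(Subgroup.inv_mem_iff _).1 (Subgroup.mem_normalizer_fintype fun g hg => ?_), h1⟩,
    h2, h3, h4⟩
  obtain ⟨a, b, c⟩ := (h.mem g).1 hg
  have k : ∀ u, Commute (pr F d * u * (pr F d)⁻¹) (pr F g) → Commute u (pr F (d⁻¹ * g * d⁻¹⁻¹)) :=
    fun u hu => by simpa [mul_assoc] using hu.conj (pr F d)⁻¹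
  refine (h.mem _).2 ⟨conj_mem_sl a _, k _ ?_, k _ ?_⟩
  · rwa [← map_mul, h3, map_mul, mul_inv_cancel_right]
  · rw [← map_mul, h4, map_mul, mul_inv_cancel_right, map_mul]
    exact b.mul_left c

theorem exists_tv : ∃ d e, d ^ 5 = 1 ∧ e ^ 5 = 1 ∧ Tv (subgroupNormalizer R ⊓ 𝐒) R x y d e := by
  obtain ⟨d, h1, h2, h3, h4⟩ := h.exists_d
  obtain ⟨e, k1, k2, k3, k4⟩ := h.swap.exists_d
  exact ⟨d, e, h2, k2, le_inf Subgroup.le_normalizer h.le_sl, h1, k1, h3, h4, k3, k4⟩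

theorem not_mem_fld {K : Subalgebra F 𝐌} (hK : IsFieldSubalgebra 5 K) {u : 𝐆} (hu : u ∈ R)
    (h1 : (u : 𝐌) ∈ K) : pr F u = 1 := by
  obtain ⟨c, hc⟩ := scalar_of_pow5 hK h.xy.om h1 (congrArg Units.val (h.five u hu))
  exact pr_eq_one.2 (mem_scalars_of_coe_eq hc)

theorem not_fld {K : Subalgebra F 𝐌} (hK : IsFieldSubalgebra 5 K) :
    ¬ R ≤ subalgebraNormalizer K := fun hle => by
  haveI : Fact (Nat.Prime 5) := ⟨by norm_num⟩
  obtain ⟨ρ, h1, h2⟩ := exists_gal hK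
  haveI : Finite (K ≃ₐ[F] K) := Nat.finite_of_card_ne_zero (by omega)
  haveI := isCyclic_of_prime_card h1
  have k : ∀ a : K ≃ₐ[F] K, a ^ 5 = 1 := fun a => by
    have := pow_card_eq_one' (x := a)
    rwa [h1] at this
  refine h.xy.not_small ((small5 (by rw [h1]; norm_num) (a := ρ ⟨x, hle h.xm⟩)
    (b := ρ ⟨y, hle h.ym⟩) (IsCyclic.isMulCommutative.is_comm.comm _ _) (k _) (k _)).imp
    (fun e => h.not_mem_fld hK h.xm (h2 _ e)) fun ⟨n, e⟩ => ⟨n, ?_⟩)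
  have := h.not_mem_fld hK (mul_mem h.ym (inv_mem (pow_mem h.xm n)))
    (h2 (⟨y, hle h.ym⟩ * (⟨x, hle h.xm⟩ ^ n)⁻¹) (by rw [map_mul, map_inv, map_pow, e, mul_inv_cancel]))
  rwa [map_mul, map_inv, map_pow, mul_inv_eq_one] at this

theorem not_orth {f : (Fin 5 → F) → (Fin 5 → F) → F} (hf : IsSesq (RingEquiv.refl F) 1 f) :
    ¬ R ≤ similarityGroup f := fun hle => by
  have := sim_comm hf (hle h.xm) (hle h.ym) h.xy.xy
  rw [RingEquiv.refl_apply, ← sq, h.xy.om.pow_eq_one_iff_dvd] at this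
  omega

theorem om_mem {F₁ : Subfield F} {P : 𝐆} (hle : R ≤ subfieldSubgroup F₁ P) : ω ∈ F₁ :=
  sub_comm (hle h.xm) (hle h.ym) h.xy.xy

variable {X : Subgroup (GL (Fin 5) F)} {d e : GL (Fin 5) F} (t : Tv X R x y d e)
include t

theorem not_frame {D : Fin 5 → Submodule F (Fin 5 → F)} (hD : IsMDecomposition 1 D) :
    ¬ X ≤ decompositionStabilizer D := fun hle => by
  obtain ⟨π, h1, -, h2⟩ := exists_perm_hom hD
  have k : ∀ a b : decompositionStabilizer D, pr F a = pr F b → π a = π b := fun a b e => by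
    have := h2 (a * b⁻¹) (pr_eq_iff.1 e)
    rwa [map_mul, map_inv, mul_inv_eq_one] at this
  let x' : decompositionStabilizer D := ⟨x, hle (t.le h.xm)⟩
  let y' : decompositionStabilizer D := ⟨y, hle (t.le h.ym)⟩
  let d' : decompositionStabilizer D := ⟨d, hle t.dm⟩
  let e' : decompositionStabilizer D := ⟨e, hle t.em⟩
  have a1 := k (x' * y') (y' * x') h.xy.comm
  have a2 := k (d' * y') (x' * y' * d') t.dy
  have a3 := k (e' * x'⁻¹) (y' * x'⁻¹ * e') t.ex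
  have a4 : Commute (π d') (π x') := by
    rw [Commute, SemiconjBy, ← map_mul, ← map_mul]; exact congrArg π (Subtype.ext t.dx)
  simp only [map_mul, map_inv] at a1 a2 a3
  have a5 : π x' = 1 := by
    rcases small5 (by rw [Nat.card_perm]; simp [Nat.factorial]) a1
      (by rw [← map_pow]; exact (congrArg π (Subtype.ext h.xy.x5)).trans (map_one π))
      (by rw [← map_pow]; exact (congrArg π (Subtype.ext h.xy.y5)).trans (map_one π))
      with e | ⟨n, e⟩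
    · exact e
    · rw [e, (a4.pow_right n).eq] at a2
      simpa using a2
  exact h.xy.not_comm (h1 x' y' a5 (by simpa [a5] using a3))

theorem mem_of_norm {P : Subgroup 𝐆} (hn : ∀ g ∈ X, ∀ s ∈ P, g * s * g⁻¹ ∈ P)
    (h5 : 5 ∣ Nat.card (P.map (pr F))) : pr F x ∈ P.map (pr F) ∧ pr F y ∈ P.map (pr F) := by
  haveI : Fact (Nat.Prime 5) := ⟨by norm_num⟩
  have hn' := conj_pr hn
  obtain ⟨_, ⟨s, hs, rfl⟩, s1, hc⟩ := exists_fixed (h.pgroup.map (pr F))
    (fun c hc => hn' c (Subgroup.map_mono t.le hc)) h5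
  obtain ⟨a, b, e1⟩ := h.xy.eq_pow (hc _ (Subgroup.mem_map_of_mem _ h.xm))
    (hc _ (Subgroup.mem_map_of_mem _ h.ym))
  have hs' : pr F s ∈ P.map (pr F) := Subgroup.mem_map_of_mem _ hs
  have hd := hn' _ (Subgroup.mem_map_of_mem _ t.dm)
  have he := hn' _ (Subgroup.mem_map_of_mem _ t.em)
  have c := h.xy.comm
  have x5 : pr F x ^ 5 = 1 := by rw [← map_pow, h.xy.x5, map_one]
  have y5 : pr F y ^ 5 = 1 := by rw [← map_pow, h.xy.y5, map_one]
  have d1 : pr F d * pr F x * (pr F d)⁻¹ = pr F x := by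
    rw [← map_mul, t.dx, map_mul, mul_inv_cancel_right]
  have d2 : pr F d * pr F y * (pr F d)⁻¹ = pr F x * pr F y := by
    rw [← map_mul, t.dy, map_mul, mul_inv_cancel_right, map_mul]
  have e2 : pr F e * pr F y * (pr F e)⁻¹ = pr F y := by
    rw [← map_mul, t.ey, map_mul, mul_inv_cancel_right]
  have e3 : pr F e * pr F x * (pr F e)⁻¹ = pr F x * (pr F y)⁻¹ := by
    rw [← _root_.inv_inj, conj_inv, ← map_inv, ← map_mul, t.ex, map_mul, mul_inv_cancel_right]; simp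
  generalize pr F x = u at *
  generalize pr F y = v at *
  generalize P.map (pr F) = Q at *
  have k : ∀ {w : 𝐆 ⧸ 𝐙} {n : Fin 5}, w ^ 5 = 1 → n ≠ 0 → w ^ (n : ℕ) ∈ Q → w ∈ Q :=
    fun {w n} w5 n0 hw => by
      have : (n : ℕ) ^ 4 % 5 = 1 :=
        (by decide : ∀ n : Fin 5, n ≠ 0 → (n : ℕ) ^ 4 % 5 = 1) n n0
      have h2 := pow_mem hw ((n : ℕ) ^ 3)
      rwa [← pow_mul, ← pow_succ', pow_eq_pow_mod _ w5, this, pow_one] at h2
  by_cases hb : b = 0
  · have ha : a ≠ 0 := by rintro rfl; exact s1 (by simp [e1, hb])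
    have hu : u ∈ Q := k x5 ha (by simpa [e1, hb] using hs')
    have := he _ hu
    rw [e3, Subgroup.mul_mem_cancel_left _ hu, Subgroup.inv_mem_iff] at this
    exact ⟨hu, this⟩
  · have h2 := hd _ hs'
    rw [e1, ← conj_mul, ← conj_pow, ← conj_pow, d1, d2, c.mul_pow, ← mul_assoc, ← pow_add,
      add_comm, pow_add, mul_assoc, ← e1, Subgroup.mul_mem_cancel_right _ hs'] at h2
    have hu := k x5 hb h2
    rw [e1, Subgroup.mul_mem_cancel_left _ (pow_mem hu _)] at hs'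
    exact ⟨hu, k y5 hb hs'⟩

theorem not_res {P : Subgroup 𝐆} (hn : ∀ g ∈ X, ∀ s ∈ P, g * s * g⁻¹ ∈ P)
    (h5 : 5 ∣ Nat.card (P ⧸ (𝐙).subgroupOf P)) : 25 ∣ Nat.card (P ⧸ (𝐙).subgroupOf P) := by
  by_contra h25
  rw [card_pr] at h5 h25
  obtain ⟨a, b⟩ := h.mem_of_norm t hn h5
  exact h.xy.not_small ((small5 h25 (a := ⟨_, a⟩) (b := ⟨_, b⟩) (Subtype.ext h.xy.comm)
    (Subtype.ext (show pr F x ^ 5 = 1 by rw [← map_pow, h.xy.x5, map_one]))
    (Subtype.ext (show pr F y ^ 5 = 1 by rw [← map_pow, h.xy.y5, map_one]))).imp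
    (congrArg Subtype.val) fun ⟨n, e⟩ => ⟨n, congrArg Subtype.val e⟩)

theorem eq_of_norm {R' : Subgroup 𝐆} {ω' : F} {x' y' : 𝐆} (h' : Ex R' ω' x' y')
    (hle : X ≤ subgroupNormalizer R') : R' = R := by
  obtain ⟨⟨a, ha, e1⟩, b, hb, e2⟩ := h.mem_of_norm t (P := R')
    (fun g hg s hs => (Subgroup.mem_normalizer_iff.1 (hle hg) s).1 hs) h'.five_dvd
  refine le_antisymm (fun g hg => (h.mem g).2 ⟨h'.le_sl hg, e1 ▸ h'.comm ha hg, e2 ▸ h'.comm hb hg⟩)
    fun g hg => (h'.mem g).2 ⟨h.le_sl hg, ?_⟩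
  obtain ⟨i, j, e⟩ := h.eq_pow hg
  rw [e, ← e1, ← e2]
  exact ⟨((h'.comm h'.xm ha).pow_right _).mul_right ((h'.comm h'.xm hb).pow_right _),
    ((h'.comm h'.ym ha).pow_right _).mul_right ((h'.comm h'.ym hb).pow_right _)⟩

end Ex

end Cfsg.Agent.G5
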