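import Cfsg.Agent.K4.SLfr
import Cfsg.Agent.K4.SLsp

/-! The monomial group and the unitary similarity groups in `SL₅`. -/

set_option autoImplicit false
set_option linter.unusedSectionVars false

namespace Cfsg.Agent.G5

open Module Cfsg.Geo Cfsg.Agent.H27 Cfsg.Agent.H77 Cfsg.Agent.K4

section

variable {F V : Type*} [Field F] [AddCommGroup V] [Module F V] [FiniteDimensional F V]
variable {H : Subgroup (V ≃ₗ[F] V)} {b : Basis (Fin 5) F V}

theorem exists_not_fifth [Fintype F] (hq : 5 ≤ Fintype.card F) : ∃ a : F, a ≠ 0 ∧ a ^ 5 ≠ 1 := by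
  by_contra hc
  push Not at hc
  have h1 : Fintype.card F - 1 ∣ 5 := (FiniteField.forall_pow_eq_one_iff F 5).1 fun x =>
    Units.ext (by simpa using hc x x.ne_zero)
  have h2 : Fintype.card F = 6 := by
    rcases (Nat.dvd_prime (by norm_num)).1 h1 with h | h <;> omega
  have h3 := FiniteField.isPrimePow_card F
  rw [h2] at h3
  exact absurd h3 (by decide)

theorem part_le_dstab5 (P : PartHyp H b) [Fintype F] (hq : 5 ≤ Fintype.card F)
    {g : V ≃ₗ[F] V} (hg : g ∈ H) : g ∈ dstab (frame b) := by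
  by_contra hg'
  obtain ⟨a', ha0, ha2, ha3⟩ := exists_good_scalar hq
  refine hg' (P.claimB (by simp) ha0 ha2 ha3 hg (k := 0) fun i hi => ?_)
  obtain ⟨a, a0, a5⟩ := exists_not_fifth hq
  obtain ⟨d, hd, hdf⟩ := slfr_diag b (fun m => if m = i then a⁻¹ ^ 4 else a)
    (fun m => by split_ifs; exacts [pow_ne_zero _ (inv_ne_zero a0), a0]) (by
      rw [← Finset.mul_prod_erase _ _ (Finset.mem_univ i), if_pos rfl,
        Finset.prod_congr rfl fun m hm => if_neg (Finset.ne_of_mem_erase hm)]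
      simp [a0])
  have hd' : ∀ x, d x = a • x + ((a⁻¹ ^ 4 - a) * b.coord i x) • b i := fun x =>
    eq_of_coord b fun m => by
      rw [hdf, map_add, map_smul, map_smul]
      by_cases h : m = i
      · subst h
        simp only [if_true, coord_self, smul_eq_mul]
        ring
      · simp [h, coord_ne b h]
  have hκ : a⁻¹ ^ 4 - a ≠ 0 := fun h => a5 (by field_simp at h; linear_combination -h)
  obtain ⟨π, hπ⟩ := exists_of_mem_dstab_frame (P.conj_mem hg (P.le hd) (k := 0) (c := a) (by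
    rw [hd', hi]; simp))
  obtain ⟨r, hr⟩ : ∃ r, b.coord i (g (b r)) ≠ 0 := by
    by_contra h0
    push Not at h0
    have : b.coord i ∘ₗ (g : V →ₗ[F] V) = 0 := b.ext h0
    simpa [le_apply_inv] using LinearMap.congr_fun this (g⁻¹ (b i))
  obtain ⟨c, -, hc⟩ := hπ r
  rw [le_mul_apply, le_mul_apply, hd', map_add, map_smul, map_smul, le_inv_apply] at hc
  have h1 : ∀ m, m ≠ r → m ≠ π r → b.coord m (g⁻¹ (b i)) = 0 := fun m h1 h2 => by
    have := congrArg (b.coord m) hc
    simp only [map_add, map_smul, coord_ne b h1, coord_ne b h2, smul_eq_mul, mul_zero,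
      zero_add] at this
    exact (mul_eq_zero.1 this).resolve_left (mul_ne_zero hκ hr)
  obtain ⟨m, hm⟩ := exists_not_mem_list [r, π r] (by simp)
  obtain ⟨m', hm'⟩ := exists_not_mem_list [r, π r, m] (by simp)
  simp only [List.mem_cons, List.not_mem_nil, or_false, not_or] at hm hm'
  exact hg' ((Subgroup.inv_mem_iff _).1 (P.claimA (by simp) ha0 ha2 ha3 (H.inv_mem hg) hm'.2.2
    (h1 _ hm'.1 hm'.2.1) (h1 _ hm.1 hm.2)))

theorem SLV_le_of_mono5 [Fintype F] (hq : 5 ≤ Fintype.card F)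
    (hH : dstab (frame b) ⊓ SLV F V ≤ H) (hS : H ≤ SLV F V) {g : V ≃ₗ[F] V} (hg : g ∈ H)
    (hg' : g ∉ dstab (frame b)) : SLV F V ≤ H := by
  by_contra hc
  refine hg' (part_le_dstab5 ⟨hH, fun h hh i j hij => ?_⟩ hq hg)
  by_contra hh'
  obtain ⟨s, hs, hs'⟩ := (basisDec b).exists_perm_SLV
    (fun i j => by rw [finrank_frame, finrank_frame]) (frame_ne_bot b) (Equiv.swap i j)
  refine hc (SLV_le_of_fix hq (by simp) hH hS (H.mul_mem (hH hs) hh) (fun h1 => hh' ?_) (i₀ := i)
    ?_)
  · rwa [(dstab _).mul_mem_cancel_left hs.1] at h1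
  · have := hs' j _ hij
    rwa [Equiv.swap_apply_right] at this

end

theorem sl_frame5 {F : Type*} [Field F] [Fintype F] (hq : 5 ≤ Fintype.card F)
    (D : Fin 5 → Submodule F (Fin 5 → F)) (hD : IsMDecomposition 1 D) :
    IsMaximalIn (specialLinear (Fin 5) F) (decompositionStabilizer D ⊓ specialLinear (Fin 5) F) := by
  have h : IsMaximalIn (SLV F (Fin 5 → F)) (dstab D ⊓ SLV F (Fin 5 → F)) := by
    obtain ⟨d⟩ := exists_dec hD.indep hD.iSup_eq_top
    refine isMaximalIn_of inf_le_right ?_ fun M hM hM' g hg hg' => ?_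
    · obtain ⟨g, hg, hg'⟩ := d.exists_SLV_not_mem_dstab (i := 0) (j := 1) (by decide) fun i =>
        ne_bot_of_finrank_pos (by rw [hD.finrank_eq]; exact one_pos)
      exact ⟨g, hg, fun h => hg' h.1⟩
    · obtain ⟨b, rfl⟩ := exists_basis_frame d hD.finrank_eq
      exact SLV_le_of_mono5 hq hM hM' hg fun h => hg' ⟨h, hM' hg⟩
  have := isMaximalIn_comap (toLE (Fin 5) F) h
  rwa [Subgroup.comap_inf, comap_SLV, comap_dstab] at this

theorem sl_u5 {F : Type*} [Field F] [Fintype F] (σ : F ≃+* F)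
    (f : (Fin 5 → F) → (Fin 5 → F) → F) (hf : IsUnitaryForm σ f) :
    IsMaximalIn (specialLinear (Fin 5) F) (similarityGroup f ⊓ specialLinear (Fin 5) F) := by
  obtain ⟨e, he⟩ : ∃ e, σ e ≠ e := by
    by_contra h
    push Not at h
    exact hf.ne_refl (RingEquiv.ext h)
  set d := e - σ e with hd
  have hd0 : d ≠ 0 := sub_ne_zero.mpr he.symm
  have hd1 : σ d = -d := by rw [hd, map_sub, hf.involutive]; ring
  let B : (Fin 5 → F) →ₛₗ[(σ : F →+* F)] (Fin 5 → F) →ₗ[F] F :=
    LinearMap.mk₂'ₛₗ (σ : F →+* F) (RingHom.id F) (fun x y => d * f y x)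
      (fun x y v => by
        rw [hf.herm v, hf.add_left, map_add, ← hf.herm, ← hf.herm, mul_add])
      (fun c x v => by
        rw [hf.herm v, hf.smul_left, map_mul, ← hf.herm, smul_eq_mul]
        exact mul_left_comm _ _ _)
      (fun x y v => by rw [hf.add_left, mul_add])
      (fun c x v => by rw [hf.smul_left, smul_eq_mul, RingHom.id_apply, mul_left_comm])
  have hB : ∀ x y, B x y = d * f y x := fun _ _ => rfl
  have hs : ∀ x y, B y x = -(σ : F →+* F) (B x y) := fun x y => by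
    rw [hB, hB, hf.herm x y]
    show _ = -σ _
    rw [map_mul, hd1]; ring
  have hR : RF B := ⟨hf.involutive, fun x hx => by
    by_contra h0
    obtain ⟨y, hy⟩ := (hf.nondegenerate x h0).1
    exact mul_ne_zero hd0 hy (hx y), fun x y h => by rw [hs, h, map_zero, neg_zero]⟩
  have hσ : (σ : F →+* F) ≠ RingHom.id F := fun h => he (RingHom.congr_fun h e)
  exact slsp_isMaximalIn
    (Cfsg.Agent.H99.not_sl_le_similarity (by simp) hf.add_left
      hf.smul_left hf.nondegenerate) hd0 hB hR hs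
    (fun z => exists_sub_sig hR.inv hσ (neg_eq_iff_eq_neg.mp (hs z z).symm))
    (solv_skew2 hR hs hσ (by simp)) (by simp)

end Cfsg.Agent.G5
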