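import Cfsg.Agent.G5.E

/-! Singer cycles in dimension five. -/

set_option autoImplicit false
set_option linter.unusedSectionVars false
set_option linter.style.haveILetI false

namespace Cfsg.Agent.G5

open Cfsg Cfsg.Geo Cfsg.Agent.H98 Cfsg.Agent.H99 Matrix

variable {F : Type*} [Field F] [Fintype F]

local notation "𝐆" => GL (Fin 5) F
local notation "𝐙" => scalars (Fin 5) F
local notation "𝐒" => specialLinear (Fin 5) F
local notation "𝐌" => Matrix (Fin 5) (Fin 5) F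

theorem orbit_le {L : Type*} [Field L] {p : Polynomial L} (hp : p ≠ 0) (φ : L →+* L)
    (hφ : p.map φ = p) {a : L} (ha : p.IsRoot a) :
    ∃ j, 1 ≤ j ∧ j ≤ p.natDegree ∧ φ^[j] a = a := by
  classical
  have k : ∀ n, φ^[n] a ∈ p.roots.toFinset := fun n => by
    rw [Multiset.mem_toFinset, Polynomial.mem_roots hp]
    induction n with
    | zero => exact ha
    | succ n ih => rw [Function.iterate_succ_apply', ← hφ]; exact ih.map
  obtain ⟨i, m, h1, h2, e⟩ := exists_period fun n => (⟨_, k n⟩ : p.roots.toFinset)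
  rw [Nat.card_eq_fintype_card, Fintype.card_coe] at h2
  refine ⟨m, h1, h2.trans ((Multiset.toFinset_card_le _).trans p.card_roots'), ?_⟩
  have e2 : φ^[m + i] a = φ^[i] a := congrArg Subtype.val e
  rw [add_comm, Function.iterate_add_apply] at e2
  exact φ.injective.iterate i e2

theorem perm5 : ∀ σ : Equiv.Perm (Fin 5), σ ^ 4 = 1 ∨ σ ^ 5 = 1 ∨ σ ^ 6 = 1 := by decide +kernel

/-- `k` is an element of order `N` and determinant one of the field `K` -/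
structure Sing (K : Subalgebra F 𝐌) (k : 𝐆) (N : ℕ) : Prop where
  fld : IsFieldSubalgebra 5 K
  mem : (k : 𝐌) ∈ K
  sl : k ∈ 𝐒
  ord : orderOf k = N

theorem exists_sing_sl {K : Subalgebra F 𝐌} (hK : IsFieldSubalgebra 5 K) :
    ∃ k, Sing K k (Fintype.card F ^ 4 + Fintype.card F ^ 3 + Fintype.card F ^ 2 +
      Fintype.card F + 1) := by
  obtain ⟨m, hm⟩ : ∃ m, Fintype.card F = m + 2 := ⟨_, (Nat.sub_add_cancel Fintype.one_lt_card).symm⟩
  have e : Fintype.card F ^ 5 - 1 = (Fintype.card F ^ 4 + Fintype.card F ^ 3 + Fintype.card F ^ 2 +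
      Fintype.card F + 1) * (Fintype.card F - 1) := by
    rw [hm]; exact Nat.sub_eq_of_eq_add (by rw [show m + 2 - 1 = m + 1 from rfl]; ring)
  obtain ⟨k, hk, ho⟩ := exists_order hK ⟨_, e⟩
  refine ⟨k, hK, hk, mem_sl.2 ?_, ho⟩
  have h1 := det_smul_one_eq_pow (by simpa using hK) hk
  rw [Fintype.card_fin, e, Nat.mul_div_cancel _ (by omega), ← Units.val_pow_eq_pow_val, ← ho,
    pow_orderOf_eq_one] at h1
  simpa using congrFun (congrFun h1 0) 0

theorem exists_sing_su {q : ℕ} [hF : Fact (Fintype.card F = q ^ 2)] {K : Subalgebra F 𝐌}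
    (hK : IsFieldSubalgebra 5 K) (ha : IsAdjointClosedFor (hermForm 5 F q) K) :
    ∃ k N, Sing K k N ∧ N + q ^ 3 + q = q ^ 4 + q ^ 2 + 1 ∧ N * (q + 1) = q ^ 5 + 1 ∧
      k ∈ H10.SUG 5 F q := by
  obtain ⟨m, rfl⟩ : ∃ m, q = m + 2 := ⟨_, (Nat.sub_add_cancel (H10.two_le_of_card_sq hF.out)).symm⟩
  have e : ((m + 2) ^ 2) ^ 5 - 1 = (m ^ 4 + 7 * m ^ 3 + 19 * m ^ 2 + 23 * m + 11) *
      (m ^ 4 + 9 * m ^ 3 + 31 * m ^ 2 + 49 * m + 31) * ((m + 2) ^ 2 - 1) := by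
    rw [show (m + 2) ^ 2 - 1 = m ^ 2 + 4 * m + 3 from Nat.sub_eq_of_eq_add (by ring)]
    exact Nat.sub_eq_of_eq_add (by ring)
  obtain ⟨k, hk, ho⟩ := exists_order hK (N := m ^ 4 + 7 * m ^ 3 + 19 * m ^ 2 + 23 * m + 11)
    (by rw [hF.out, e, mul_assoc]; exact dvd_mul_right _ _)
  have h1 : k ∈ H10.SUG 5 F (m + 2) := by
    rw [H10.mem_SUG_iff_pow (by norm_num) hK ha hk, ← orderOf_dvd_iff_pow_eq_one,
      ← orderOf_dvd_iff_pow_eq_one, ho, e, Nat.mul_div_cancel _ (by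
        rw [show (m + 2) ^ 2 - 1 = m ^ 2 + 4 * m + 3 from Nat.sub_eq_of_eq_add (by ring)]; omega)]
    exact ⟨⟨m + 3, by ring⟩, dvd_mul_right _ _⟩
  exact ⟨k, _, ⟨hK, hk, h1.2, ho⟩, by ring, by ring, h1⟩

namespace Sing

variable {K : Subalgebra F (Matrix (Fin 5) (Fin 5) F)} {k : GL (Fin 5) F} {N : ℕ} (h : Sing K k N)
include h

theorem dvd_of_Z {m : ℕ} (hm : k ^ m ∈ 𝐙) : N ∣ 5 * m := by
  rw [← h.ord, orderOf_dvd_iff_pow_eq_one, pow_mul']
  exact pow5_of_scalar hm (pow_mem h.sl m)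

theorem dvd_of_smul {m : ℕ} {c : F} (hm : (k : 𝐌) ^ m = c • 1) : N ∣ 5 * m :=
  h.dvd_of_Z (mem_scalars_of_coe_eq hm)

theorem mem_norm : k ∈ subalgebraNormalizer K := mem_fldNorm h.fld h.mem

theorem irr (hN : ¬ N ∣ 5) {W : Submodule F (Fin 5 → F)} (hW : ∀ v ∈ W, (k : 𝐌) *ᵥ v ∈ W) :
    W = ⊥ ∨ W = ⊤ := by
  let B : Subalgebra F 𝐌 :=
    { carrier := {x | ∀ v ∈ W, x *ᵥ v ∈ W}
      mul_mem' := fun ha hb v hv => by rw [← mulVec_mulVec]; exact ha _ (hb v hv)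
      add_mem' := fun ha hb v hv => by rw [add_mulVec]; exact W.add_mem (ha v hv) (hb v hv)
      algebraMap_mem' := fun c v hv => by
        rw [Algebra.algebraMap_eq_smul_one, smul_mulVec, one_mulVec]; exact W.smul_mem c hv }
  have h1 := fld_le_of_mem h.fld h.mem (fun c e => hN (h.dvd_of_smul (m := 1) (by simpa using e)))
    (B := B) hW
  have h2 := IsFieldSubalgebra_dvd h.fld (W := W) fun x hx => h1 hx
  have h3 : Module.finrank F W ≤ 5 := by simpa using W.finrank_le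
  by_cases h0 : Module.finrank F W = 0
  · exact Or.inl (Submodule.finrank_eq_zero.1 h0)
  · exact Or.inr (Submodule.eq_top_of_finrank_eq (by
      have := Nat.le_of_dvd (by omega) h2
      simp; omega))

theorem t1 (hN : ¬ N ∣ 5) {W : Submodule F (Fin 5 → F)} (hW : k ∈ subspaceStabilizer W) :
    W = ⊥ ∨ W = ⊤ := h.irr hN fun v hv => (hW v).1 hv

theorem t2 {D : Fin 5 → Submodule F (Fin 5 → F)} (hD : IsMDecomposition 1 D)
    (hk : k ∈ decompositionStabilizer D) : N ≤ 30 := by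
  obtain ⟨π, -, h3, -⟩ := exists_perm_hom hD
  have key : ∀ m, π ⟨k, hk⟩ ^ m = 1 → N ∣ 5 * m := fun m e => by
    obtain ⟨v, c, v0, hv⟩ := h3 (⟨k, hk⟩ ^ m) (by rw [map_pow, e])
    refine h.dvd_of_smul (c := c) (fld_scalar h.fld (K.pow_mem h.mem m)
      (exists_mulVec_eq_zero_iff.1 ⟨v, v0, ?_⟩))
    rw [sub_mulVec, smul_mulVec, one_mulVec, ← hv, sub_eq_zero, ← Units.val_pow_eq_pow_val]
    rfl
  rcases perm5 (π ⟨k, hk⟩) with e | e | e <;> have := Nat.le_of_dvd (by norm_num) (key _ e) <;> omega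

theorem t3 (hN : ¬ N ∣ 25) {K' : Subalgebra F 𝐌} (hK' : IsFieldSubalgebra 5 K')
    (hk : k ∈ subalgebraNormalizer K') : K' = K := by
  have h1 := fld_le_of_mem h.fld (K.pow_mem h.mem 5) (fun c e => hN (h.dvd_of_smul e))
    (pow5_mem hK' hk)
  exact (Subalgebra.eq_of_le_of_finrank_eq h1 (h.fld.finrank_eq.trans hK'.finrank_eq.symm)).symm

theorem t5 {F₁ : Subfield F} {P : 𝐆} (hk : k ∈ subfieldSubgroup F₁ P) :
    ∃ j, 1 ≤ j ∧ j ≤ 5 ∧ N ∣ 5 * (Nat.card F₁ ^ j - 1) := by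
  obtain ⟨c, hc⟩ := H98.mem_subfieldSubgroup.1 hk
  letI : Field K := (isField_of_isFld h.fld.comm h.fld.inv).toField
  obtain ⟨φ, hφ, hφ'⟩ := H85.L3.exists_frob (L := K) F₁
  let A : Matrix (Fin 5) (Fin 5) F₁ := Matrix.of fun i j => ⟨_, hc i j⟩
  have hA : A.map F₁.subtype = H98.cj P⁻¹ ((c : F) • (k : 𝐌)) := by rw [map_smul]; rfl
  let a : K := ⟨(c : F) • (k : 𝐌), K.smul_mem h.mem c⟩
  have a0 : a ≠ 0 := fun e => smul_ne_zero c.ne_zero (Units.ne_zero k) (congrArg Subtype.val e)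
  have hm := A.charpoly_monic.map ((algebraMap F K).comp F₁.subtype)
  obtain ⟨j, j1, j2, e⟩ := orbit_le hm.ne_zero φ (by
    rw [Polynomial.map_map]; congr 1; ext1 x; exact hφ' _ x.2) (a := a) (by
      rw [← Polynomial.map_map, ← charpoly_map, Polynomial.IsRoot, Polynomial.eval_map_algebraMap]
      apply Subtype.val_injective
      refine (Polynomial.aeval_algHom_apply K.val a _).symm.trans ((H98.cj P⁻¹).injective ?_)
      rw [← Polynomial.aeval_algHom_apply]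
      change Polynomial.aeval (H98.cj P⁻¹ ((c : F) • (k : 𝐌))) _ = H98.cj P⁻¹ 0
      rw [← hA, aeval_self_charpoly, map_zero])
  rw [A.charpoly_monic.natDegree_map, charpoly_natDegree_eq_dim, Fintype.card_fin] at j2
  refine ⟨j, j1, j2, ?_⟩
  have k1 : ∀ n, φ^[n] a = a ^ Nat.card F₁ ^ n := fun n => by
    induction n with
    | zero => simp
    | succ n ih => rw [Function.iterate_succ_apply', ih, hφ, ← pow_mul, ← pow_succ]
  obtain ⟨m, hm⟩ : ∃ m, Nat.card F₁ ^ j = m + 1 :=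
    ⟨_, (Nat.succ_pred_eq_of_pos (pow_pos Nat.card_pos _)).symm⟩
  rw [k1, hm, pow_succ, mul_eq_right₀ a0] at e
  have e2 : ((c : F) • (k : 𝐌)) ^ m = 1 := congrArg Subtype.val e
  refine h.dvd_of_smul (c := ((c : F) ^ m)⁻¹) ?_
  rw [hm, Nat.add_sub_cancel, eq_inv_smul_iff₀ (pow_ne_zero _ c.ne_zero), ← _root_.smul_pow, e2]

theorem t8 {σ : F ≃+* F} {f : (Fin 5 → F) → (Fin 5 → F) → F} (hf : IsSesq σ 1 f)
    (hk : k ∈ similarityGroup f) :
    N ∣ 10 ∨ ∃ Q, Fintype.card F ^ 5 = Q ^ 2 ∧ N ∣ 5 * (Q + 1) := by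
  by_cases hN : N ∣ 5
  · exact Or.inl (hN.trans (by norm_num))
  obtain ⟨c, hc⟩ := hk
  have h1 := hf.adj_of_sim hc
  have hc := h.fld.comm
  let B : Subalgebra F 𝐌 :=
    { carrier := {x | adj σ f x ∈ K}
      mul_mem' := fun ha hb => by
        rw [Set.mem_ofPred_eq, hf.adj_mul]; exact K.mul_mem hb ha
      add_mem' := fun ha hb => by
        rw [Set.mem_ofPred_eq, hf.adj_add]; exact K.add_mem ha hb
      algebraMap_mem' := fun c => by
        rw [Set.mem_ofPred_eq, Algebra.algebraMap_eq_smul_one, hf.adj_smul, hf.adj_one]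
        exact K.smul_mem K.one_mem _ }
  have h2 : ∀ x ∈ K, adj σ f x ∈ K := fld_le_of_mem h.fld h.mem
    (fun c e => hN (h.dvd_of_smul (m := 1) (by simpa using e))) (B := B)
    (show adj σ f k ∈ K from h1 ▸ K.smul_mem (inv_mem_fld h.fld h.mem) _)
  letI : Field K := (isField_of_isFld h.fld.comm h.fld.inv).toField
  haveI : Finite K := Subtype.finite
  haveI := Fintype.ofFinite K
  let τ : K ≃+* K :=
    { toFun := fun x => ⟨_, h2 x x.2⟩
      invFun := fun x => ⟨_, h2 x x.2⟩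
      left_inv := fun x => Subtype.ext (hf.adj_adj _)
      right_inv := fun x => Subtype.ext (hf.adj_adj _)
      map_mul' := fun x y => Subtype.ext ((hf.adj_mul _ _).trans (hc _ (h2 y y.2) _ (h2 x x.2)))
      map_add' := fun x y => Subtype.ext (hf.adj_add _ _) }
  have key : ∀ n, (τ ⟨k, h.mem⟩ : 𝐌) = (k : 𝐌) ^ n → N ∣ 5 * (n + 1) := fun n e =>
    h.dvd_of_smul (c := σ c) (by
      rw [pow_succ, ← e]
      exact (congrArg (· * (k : 𝐌)) h1).trans (by rw [smul_mul_assoc, Units.inv_mul]))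
  by_cases ht : τ = RingEquiv.refl K
  · exact Or.inl (key 1 (by rw [ht, pow_one]; rfl))
  · obtain ⟨Q, hQ, e⟩ := H85.L3.exists_q ht fun x => Subtype.ext (hf.adj_adj _)
    refine Or.inr ⟨Q, ?_, key Q (by rw [e]; rfl)⟩
    rw [← hQ.out, ← Nat.card_eq_fintype_card (α := K), H10.card_fieldSub h.fld]

theorem mem_of_comm_pr {m : ℕ} (hN : ¬ N ∣ 25 * m) {x : 𝐆}
    (hx : Commute (pr F (k ^ m)) (pr F x)) : (x : 𝐌) ∈ K := by
  have := pow5_comm (pr_comm_iff.1 hx)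
  rw [Units.val_pow_eq_pow_val, ← pow_mul] at this
  exact mem_of_comm h.fld (K.pow_mem h.mem _)
    (fun c e => hN (by simpa [mul_comm m, ← mul_assoc] using h.dvd_of_smul e)) this.symm

theorem bound {P : Subgroup 𝐆} (hn : ∀ s ∈ P, k * s * k⁻¹ ∈ P) {x : 𝐆} (hx : x ∈ P)
    (hx' : (x : 𝐌) ∉ K) : ∃ m, 1 ≤ m ∧ m ≤ Nat.card (P.map (pr F)) ∧ N ∣ 25 * m := by
  have k1 : ∀ n : ℕ, k ^ n * x * (k ^ n)⁻¹ ∈ P := fun n => by
    induction n with
    | zero => simpa using hx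
    | succ n ih => simpa [pow_succ', mul_assoc] using hn _ ih
  obtain ⟨i, m, h1, h2, e⟩ := exists_period fun n =>
    (⟨_, Subgroup.mem_map_of_mem _ (k1 n)⟩ : P.map (pr F))
  refine ⟨m, h1, h2, by_contra fun hN => hx' (h.mem_of_comm_pr hN ?_)⟩
  have e2 := congrArg Subtype.val e
  simp only [map_mul, map_inv, add_comm m, pow_add, _root_.mul_inv_rev, mul_assoc,
    mul_right_inj] at e2
  rw [← mul_assoc, ← mul_assoc, mul_left_inj, mul_inv_eq_iff_eq_mul] at e2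
  exact e2

theorem t6 {R : Subgroup 𝐆} {ω : F} {x y : 𝐆} (hR : Ex R ω x y) (hk : k ∈ subgroupNormalizer R) :
    ∃ m, 1 ≤ m ∧ m ≤ 25 ∧ N ∣ 25 * m := by
  obtain ⟨m, h1, h2, h3⟩ := h.bound (P := R)
    (fun s hs => (Subgroup.mem_normalizer_iff.1 hk s).1 hs) hR.xm
    fun e => hR.xy.not_small (Or.inl (hR.not_mem_fld h.fld hR.xm e))
  exact ⟨m, h1, h2.trans hR.card_le, h3⟩

theorem res_bound {H P : Subgroup 𝐆} (hc : IsResidualCore H P) (hk : k ∈ H) :
    ∃ m, 1 ≤ m ∧ m ≤ Nat.card (P ⧸ (𝐙).subgroupOf P) ∧ N ∣ 25 * m := by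
  obtain ⟨x, hx, y, hy, hxy⟩ := exists_noncomm_of_span (by simp)
    (grpAlg_eq_top_of_absIrr hc.absIrred)
  rw [card_pr]
  by_cases h1 : (x : 𝐌) ∈ K
  · exact h.bound (hc.normal k hk) hy fun h2 => hxy (Units.ext (h.fld.comm _ h1 _ h2))
  · exact h.bound (hc.normal k hk) hx h1

theorem res_count (hN : Nat.Coprime N 5) {P : Subgroup 𝐆} (hn : ∀ s ∈ P, k * s * k⁻¹ ∈ P) :
    ∃ c, c ∣ Nat.card (P ⧸ (𝐙).subgroupOf P) ∧
      (Fintype.card F - 1) * c ∣ Fintype.card F ^ 5 - 1 ∧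
      Nat.card (P ⧸ (𝐙).subgroupOf P) ≡ c [MOD N] := by
  rw [card_pr]
  have ho : orderOf (pr F k) = N := Nat.dvd_antisymm (h.ord ▸ orderOf_map_dvd _ _)
    (hN.dvd_of_dvd_mul_left (h.dvd_of_Z (pr_eq_one.1 (by rw [map_pow, pow_orderOf_eq_one]))))
  have k1 : ∀ g ∈ Subgroup.zpowers k, ∀ s ∈ P, g * s * g⁻¹ ∈ P := fun g hg s hs =>
    (Subgroup.mem_normalizer_iff.1
      (Subgroup.zpowers_le.2 (Subgroup.mem_normalizer_fintype (S := (P : Set 𝐆)) hn) hg) s).1 hs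
  have k2 := conj_pr k1
  rw [MonoidHom.map_zpowers] at k2
  have := count_free (T := (KU h.fld).map (pr F)) k2 ?_ ?_
  · rw [Nat.card_zpowers, ho] at this
    refine ⟨_, Subgroup.card_dvd_of_le inf_le_left, ?_, this⟩
    have h3 := QuotientGroup.card_preimage_mk 𝐙 ((KU h.fld).map (pr F) : Set (𝐆 ⧸ 𝐙))
    have h4 : ((KU h.fld).map (pr F)).comap (pr F) = KU h.fld :=
      Subgroup.comap_map_eq_self (by rw [QuotientGroup.ker_mk']; exact Z_le_KU h.fld)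
    rw [← card_KU h.fld, ← card_Z]
    exact (Nat.mul_dvd_mul_left _ (Subgroup.card_dvd_of_le inf_le_right)).trans
      (dvd_of_eq (h3.symm.trans (congrArg (fun T : Subgroup 𝐆 => Nat.card T) h4)))
  · rintro _ ⟨n, rfl⟩ _ ⟨x, hx, rfl⟩
    have : Commute k x := Units.ext (h.fld.comm _ h.mem _ hx)
    exact (this.map (pr F)).zpow_left n
  · rintro c hc c1 _ ⟨x, -, rfl⟩ e
    obtain ⟨m, rfl⟩ := mem_powers_iff_mem_zpowers.2 hc
    refine ⟨x, h.mem_of_comm_pr (m := m) (fun e => c1 ?_) (by rw [map_pow]; exact e), rfl⟩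
    exact orderOf_dvd_iff_pow_eq_one.1 (ho ▸ (hN.pow_right 2).dvd_of_dvd_mul_left e)

end Sing

end Cfsg.Agent.G5
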