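import Cfsg.Agent.H10.UMax
import Cfsg.Agent.S0813
import Cfsg.Agent.S0815
import Cfsg.Agent.S0280
import Cfsg.Agent.S0242
import Cfsg.Agent.S0265

/-! Orders of groups in the residual class; involutions normalising an extraspecial group. -/

set_option autoImplicit false
set_option linter.unusedSectionVars false
set_option linter.style.haveILetI false

namespace Cfsg.Agent.G5.Rs

open Cfsg Cfsg.Geo Cfsg.Agent.H98 Cfsg.Agent.H99 Matrix

section Res

variable {ι : Type} [Fintype ι] [DecidableEq ι] {F : Type*} [Field F] [Fintype F]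

theorem card_scal_dvd [Nonempty ι] {K : Subgroup (GL ι F)} (h1 : K ≤ scalars ι F)
    (h2 : K ≤ specialLinear ι F) : Nat.card K ∣ Fintype.card ι := by
  haveI : IsCyclic (scalars ι F) := isCyclic_of_surjective _ (MonoidHom.rangeRestrict_surjective _)
  haveI := Subgroup.isCyclic_of_le h1
  rw [← IsCyclic.exponent_eq_card]
  refine Monoid.exponent_dvd_of_forall_pow_eq_one fun g => Subtype.ext ?_
  obtain ⟨c, hc⟩ := mem_scalars_iff'.1 (h1 g.2)
  have h3 := mem_sl.1 (h2 g.2)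
  rw [hc, coe_scal, det_smul, det_one, mul_one] at h3
  rw [SubgroupClass.coe_pow, hc, ← scal_pow, show c ^ Fintype.card ι = 1 from Units.ext h3, scal_one]
  rfl

theorem exists_autHom {H P : Subgroup (GL ι F)} (hc : IsResidualCore H P) {Q : Type*} [Group Q]
    (e : (P ⧸ (scalars ι F).subgroupOf P) ≃* Q) :
    ∃ φ : H →* MulAut Q, ∀ h, φ h = 1 → (h : GL ι F) ∈ scalars ι F := by
  have key : ∀ h : H, ∃ a : MulAut Q, ∀ x (hx : x ∈ P), a (e (QuotientGroup.mk ⟨x, hx⟩)) =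
      e (QuotientGroup.mk ⟨h * x * h⁻¹, hc.normal h h.2 x hx⟩) := fun ⟨h, hh⟩ => by
    let c : P ≃* P :=
      { toFun := fun x => ⟨h * x * h⁻¹, hc.normal h hh x x.2⟩
        invFun := fun x => ⟨h⁻¹ * x * h⁻¹⁻¹, hc.normal h⁻¹ (H.inv_mem hh) x x.2⟩
        left_inv := fun x => Subtype.ext (by simp [mul_assoc])
        right_inv := fun x => Subtype.ext (by simp [mul_assoc])
        map_mul' := fun x y => Subtype.ext (by simp [mul_assoc]) }
    have he : ((scalars ι F).subgroupOf P).map (c : P →* P) = (scalars ι F).subgroupOf P := by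
      ext x
      constructor
      · rintro ⟨y, hy, rfl⟩
        exact scalars_normal.conj_mem _ hy h
      · intro hx
        exact ⟨c.symm x, scalars_normal.conj_mem _ hx h⁻¹, c.apply_symm_apply x⟩
    refine ⟨(e.symm.trans (QuotientGroup.congr _ _ c he)).trans e, fun x hx => ?_⟩
    simp only [MulEquiv.trans_apply, MulEquiv.symm_apply_apply]
    rfl
  choose a ha using key
  refine ⟨MonoidHom.mk' a fun g h => ?_, fun h h1 => hc.centralizer_scalar h h.2 fun x hx => ?_⟩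
  · ext y
    obtain ⟨y, rfl⟩ := e.surjective y
    obtain ⟨⟨x, hx⟩, rfl⟩ := QuotientGroup.mk_surjective y
    rw [MulAut.mul_apply, ha, ha, ha]
    congr 3
    simp [mul_assoc]
  · have h2 := ha h x hx
    rw [show a h = 1 from h1, MulAut.one_apply, e.apply_eq_iff_eq, eq_comm, QuotientGroup.eq] at h2
    have h3 : ((h : GL ι F) * x * h⁻¹)⁻¹ * x ∈ scalars ι F := h2
    have h4 := scalars_normal.conj_mem _ ((scalars ι F).inv_mem h3) x
    simpa [mul_assoc] using h4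

theorem res_card [Nonempty ι] {H P : Subgroup (GL ι F)} (hc : IsResidualCore H P)
    (hS : H ≤ specialLinear ι F) {Q : Type*} [Group Q]
    (e : (P ⧸ (scalars ι F).subgroupOf P) ≃* Q) :
    Nat.card H ∣ Fintype.card ι * Nat.card (MulAut Q) := by
  obtain ⟨φ, hφ⟩ := exists_autHom hc e
  rw [← φ.ker.card_mul_index, Subgroup.index_ker]
  refine mul_dvd_mul ?_ (Subgroup.card_subgroup_dvd_card _)
  rw [← Subgroup.card_map_of_injective H.subtype_injective]
  refine card_scal_dvd ?_ ?_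
  · rintro _ ⟨g, hg, rfl⟩; exact hφ g hg
  · rintro _ ⟨g, -, rfl⟩; exact hS g.2

theorem card_aut_l2 :
    Nat.card (MulAut (ProjectiveSpecialLinearGroup (Fin 2) (ZMod 11))) = 1320 := by
  haveI : Fact (Nat.Prime 11) := ⟨by norm_num⟩
  have h := S0242.result (F := ZMod 11) (ZMod.card 11) 2 (by norm_num)
  rw [S0813.result (F := ZMod 11) 11 1 le_rfl (by simp) 2 le_rfl (by norm_num), S0265.result]
  simp only [Fin.prod_univ_two] at h
  norm_num at h ⊢
  omega

theorem card_aut_u4 {K : Type*} [Field K] [Fintype K] (hK : Fintype.card K = 4) :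
    Nat.card (MulAut (PSU 4 K 2)) = 51840 := by
  have h := S0280.result (F := K) (q := 2) hK 4 (by norm_num)
  rw [S0815.result (F := K) 2 1 le_rfl (q := 2) rfl hK 4 (by norm_num) (by norm_num)]
  simp only [Finset.prod_range_succ] at h
  norm_num [show ¬ Even 3 by decide] at h ⊢
  omega

end Res

section Grp

variable {G : Type*} [Group G]

theorem prime_mul_dvd [Finite G] {T M : Subgroup G} {c : G} {p : ℕ} (hp : p.Prime) (hT : T ≤ M)
    (hc : c ∈ M) (hn : ∀ t ∈ T, c * t * c⁻¹ ∈ T) (h1 : c ∉ T) (h2 : c ^ p = 1) :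
    p * Nat.card T ∣ Nat.card M := by
  haveI := Fact.mk hp
  let N := M ⊓ Subgroup.normalizer (T : Set G)
  have hTN : T ≤ N := le_inf hT Subgroup.le_normalizer
  haveI : (T.subgroupOf N).Normal := Subgroup.normal_subgroupOf_of_le_normalizer inf_le_right
  have hcN : c ∈ N := ⟨hc, Subgroup.mem_normalizer_fintype hn⟩
  have h3 : orderOf (QuotientGroup.mk ⟨c, hcN⟩ : N ⧸ T.subgroupOf N) = p :=
    orderOf_eq_prime ((QuotientGroup.mk_pow (T.subgroupOf N) _ _).symm.trans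
      (congrArg _ (Subtype.ext h2))) fun h =>
        h1 ((QuotientGroup.eq_one_iff (N := T.subgroupOf N) ⟨c, hcN⟩).1 h)
  refine Dvd.dvd.trans ?_ (Subgroup.card_dvd_of_le (inf_le_left : N ≤ M))
  rw [Subgroup.card_eq_card_quotient_mul_card_subgroup (T.subgroupOf N),
    Nat.card_congr (Subgroup.subgroupOfEquivOfLe hTN).toEquiv]
  exact mul_dvd_mul_right (h3 ▸ orderOf_dvd_natCard _) _

/-- A group of exponent five which is extraspecial of order `125` modulo `Z`. -/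
structure Ex (R Z : Subgroup G) : Prop where
  cz : ∀ z ∈ Z, ∀ g, z * g = g * z
  e5 : ∀ x ∈ R, x ^ 5 = 1
  cm : ∀ x ∈ R, ∀ y ∈ R, x * y * x⁻¹ * y⁻¹ ∈ Z
  cen : ∀ u ∈ R, u ∉ Z → ∀ w ∈ R, u * w = w * u → ∃ (k : ℤ), ∃ z ∈ Z, w = u ^ k * z
  fa : ∀ g, (∀ x ∈ R, g * x = x * g) → g ∈ Z

theorem eq_one_of_25 {x : G} (h2 : x * x = 1) (h5 : x ^ 5 = 1) : x = 1 := by
  rw [show x ^ 5 = x * x * (x * x) * x by simp only [pow_succ, pow_zero, one_mul, mul_assoc], h2,
    one_mul, one_mul] at h5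
  exact h5

namespace Ex

variable {R Z : Subgroup G} (E : Ex R Z) {g : G} (hg : ∀ x ∈ R, g * x * g⁻¹ ∈ R) (g2 : g * g = 1)
include E hg g2

theorem triv (h : ∀ x ∈ R, g * x * g⁻¹ * x⁻¹ ∈ Z) : g ∈ Z := by
  refine E.fa g fun x hx => ?_
  have h1 := E.cz _ (h x hx)
  have h2 := E.e5 _ (R.mul_mem (hg x hx) (R.inv_mem hx))
  obtain ⟨z, hz⟩ : ∃ z, z = g * x * g⁻¹ * x⁻¹ := ⟨_, rfl⟩
  rw [← hz] at h1 h2
  have h3 : g * x = z * x * g := by rw [hz]; group
  have h4 : z * z = 1 := by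
    have : g * g * x = z * z * x * (g * g) := by
      rw [mul_assoc g g, h3, mul_assoc z x g, ← mul_assoc g z, ← h1 g, mul_assoc z g,
        ← mul_assoc g x, h3]
      simp only [mul_assoc]
    simpa [g2] using this.symm
  rw [h3, eq_one_of_25 h4 h2, one_mul]

theorem inv (gZ : g ∉ Z) {x : G} (hx : x ∈ R) : g * x * g⁻¹ * x ∈ Z := by
  have gi : g⁻¹ = g := inv_eq_of_mul_eq_one_right g2
  have gg : ∀ y, g * (g * y * g⁻¹) * g⁻¹ = y := fun y => by
    rw [gi, ← mul_assoc, ← mul_assoc, g2, one_mul, mul_assoc, g2, mul_one]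
  obtain ⟨y, hy, hw⟩ : ∃ y ∈ R, g * y * g⁻¹ * y⁻¹ ∉ Z := by
    by_contra hc
    push Not at hc
    exact gZ (E.triv hg g2 hc)
  have w1 := R.mul_mem (hg y hy) (R.inv_mem hy)
  have w2 : g * (g * y * g⁻¹ * y⁻¹) * g⁻¹ = (g * y * g⁻¹ * y⁻¹)⁻¹ := by
    rw [← conj_mul, gg]; group
  generalize g * y * g⁻¹ * y⁻¹ = w at hw w1 w2
  by_contra hu
  have u1 := R.mul_mem (hg x hx) hx
  have c1 := E.cm x hx _ (hg x hx)
  have u2 : g * (g * x * g⁻¹ * x) * g⁻¹ =
      x * (g * x * g⁻¹) * x⁻¹ * (g * x * g⁻¹)⁻¹ * (g * x * g⁻¹ * x) := by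
    rw [← conj_mul, gg]; group
  have c2 := E.cz _ c1
  generalize x * (g * x * g⁻¹) * x⁻¹ * (g * x * g⁻¹)⁻¹ = c at c1 c2 u2
  generalize g * x * g⁻¹ * x = u at hu u1 u2
  have d1 := E.cz _ (E.cm w w1 u u1)
  have d2 := E.e5 _ (R.mul_mem (R.mul_mem (R.mul_mem w1 u1) (R.inv_mem w1)) (R.inv_mem u1))
  have d3 : g * (w * u * w⁻¹ * u⁻¹) * g⁻¹ = (w * u * w⁻¹ * u⁻¹)⁻¹ := by
    rw [← conj_mul, ← conj_mul, ← conj_mul, ← conj_inv, ← conj_inv, w2, u2]
    calc w⁻¹ * (c * u) * w⁻¹⁻¹ * (c * u)⁻¹ = w⁻¹ * (c * (u * w * u⁻¹)) * c⁻¹ := by group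
      _ = w⁻¹ * ((w * u * w⁻¹ * u⁻¹)⁻¹ * w) := by rw [c2]; group
      _ = _ := by rw [(show Commute _ w from d1 w).inv_left.eq, inv_mul_cancel_left]
  rw [← d1 g, mul_inv_cancel_right, eq_inv_iff_mul_eq_one] at d3
  have d4 := eq_one_of_25 d3 d2
  obtain ⟨k, z, hz, rfl⟩ := E.cen u u1 hu w w1 (by
    rw [← mul_inv_eq_one, ← inv_eq_one, ← d4]; group)
  have cu : Commute c u := c2 u
  rw [← conj_mul, ← conj_zpow, u2, cu.mul_zpow, ← E.cz z hz g, mul_inv_cancel_right, mul_assoc,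
    eq_inv_iff_mul_eq_one, mul_assoc, ← inv_eq_iff_mul_eq_one] at w2
  have w3 := E.e5 _ w1
  generalize u ^ k * z = w at hw w2 w3
  refine hw ?_
  rw [show w = (w * w) ^ 3 * (w ^ 5)⁻¹ by rw [← pow_two, ← pow_mul]; group, w3, ← w2]
  simpa using Z.pow_mem (Z.inv_mem (Z.zpow_mem c1 k)) 3

omit hg g2 in
/-- No four-group of non-scalar involutions normalises `R`. -/
theorem no_four [Z.Normal] {a b : G} (ha : ∀ x ∈ R, a * x * a⁻¹ ∈ R) (hb : ∀ x ∈ R, b * x * b⁻¹ ∈ R)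
    (a2 : a * a = 1) (b2 : b * b = 1) (h2 : a * b * (a * b) = 1) (aZ : a ∉ Z) (bZ : b ∉ Z) :
    a * b ∈ Z := by
  refine E.triv (fun x hx => by simpa [mul_assoc] using ha _ (hb x hx)) h2 fun x hx => ?_
  have h := Z.mul_mem (Subgroup.Normal.conj_mem ‹_› _ (E.inv hb b2 bZ hx) a)
    (Z.inv_mem (Subgroup.Normal.conj_mem ‹_› _ (E.inv ha a2 aZ hx) x))
  convert h using 1
  group

end Ex

theorem ex_abs [Finite G] (h1 : Nat.card G = 125) (h2 : Nat.card (Subgroup.center G) = 5) :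
    (∀ x y : G, x * y * x⁻¹ * y⁻¹ ∈ Subgroup.center G) ∧ ∀ u, u ∉ Subgroup.center G → ∀ w,
      u * w = w * u → ∃ k : ℤ, ∃ z ∈ Subgroup.center G, u ^ k * z = w := by
  haveI : Fact (Nat.Prime 5) := ⟨by norm_num⟩
  refine ⟨fun x y => ?_, fun u uc w h => ?_⟩
  · have h3 : Nat.card (G ⧸ Subgroup.center G) = 5 ^ 2 := by
      have := Subgroup.card_eq_card_quotient_mul_card_subgroup (Subgroup.center G)
      rw [h1, h2] at this
      omega
    have h4 := (IsPGroup.isMulCommutative_of_card_eq_prime_sq h3).is_comm.comm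
      (QuotientGroup.mk x) (QuotientGroup.mk y)
    refine (QuotientGroup.eq_one_iff _).1 ?_
    simp only [QuotientGroup.mk_mul, QuotientGroup.mk_inv, h4]
    group
  let S := Subgroup.zpowers u ⊔ Subgroup.center G
  let C := Subgroup.centralizer {u}
  have a1 : S ≤ C := sup_le (Subgroup.zpowers_le.2 (Subgroup.mem_centralizer_singleton_iff.2 rfl))
    (Subgroup.center_le_centralizer _)
  have a2 : Nat.card C ≠ 125 := fun h => uc (Subgroup.mem_center_iff.2 fun g =>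
    Subgroup.mem_centralizer_singleton_iff.1 (show g ∈ C by
      rw [Subgroup.eq_top_of_card_eq C (h.trans h1.symm)]; trivial))
  have a3 : ¬ Nat.card S ≤ 5 := fun h => uc (by
    rw [Subgroup.eq_of_le_of_card_ge (le_sup_right : _ ≤ S) (h.trans h2.ge)]
    exact Subgroup.mem_sup_left (Subgroup.mem_zpowers _))
  have a4 := Subgroup.card_le_of_le a1
  obtain ⟨i, hi1, hi2⟩ := (Nat.dvd_prime_pow (m := 3) Nat.prime_five).1
    (show Nat.card S ∣ 5 ^ 3 from (Subgroup.card_subgroup_dvd_card S).trans (h1 ▸ dvd_rfl))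
  obtain ⟨j, hj1, hj2⟩ := (Nat.dvd_prime_pow (m := 3) Nat.prime_five).1
    (show Nat.card C ∣ 5 ^ 3 from (Subgroup.card_subgroup_dvd_card C).trans (h1 ▸ dvd_rfl))
  have a5 : S = C := Subgroup.eq_of_le_of_card_ge a1 (by
    interval_cases i <;> interval_cases j <;> omega)
  have a6 : w ∈ S := a5 ▸ Subgroup.mem_centralizer_singleton_iff.2 h.symm
  obtain ⟨_, ⟨k, rfl⟩, z, hz, e⟩ := Subgroup.mem_sup_of_normal_right.1 a6
  exact ⟨k, z, hz, e⟩

end Grp

theorem ex_of {ι : Type} [Fintype ι] [DecidableEq ι] [Nonempty ι] {F : Type*} [Field F] [Fintype F]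
    {R : Subgroup (GL ι F)} (hR : IsSymplecticTypeGroup 5 R)
    (hi : ActsAbsolutelyIrreducibly (matrixSet R)) (h1 : Nat.card R = 125)
    (h2 : Nat.card (Subgroup.center R) = 5) : Ex R (scalars ι F) := by
  have fa : ∀ g : GL ι F, (∀ x ∈ R, g * x = x * g) → g ∈ scalars ι F := fun g hg => by
    obtain ⟨c, hc⟩ := hi.2 g fun s hs => by
      obtain ⟨x, hx, rfl⟩ := mem_matrixSet.1 hs
      exact congrArg Units.val (hg x hx)
    exact mem_scalars_of_coe_eq hc
  have cs : ∀ z ∈ Subgroup.center R, (z : GL ι F) ∈ scalars ι F := fun z hz =>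
    fa _ fun x hx => (congrArg Subtype.val (Subgroup.mem_center_iff.1 hz ⟨x, hx⟩)).symm
  obtain ⟨a1, a2⟩ := ex_abs h1 h2
  refine ⟨fun z hz => scalars_comm hz, fun x hx => ?_, fun x hx y hy => cs _ (a1 ⟨x, hx⟩ ⟨y, hy⟩),
    fun u hu uZ w hw h => ?_, fa⟩
  · have := Monoid.pow_exponent_eq_one (⟨x, hx⟩ : R)
    rw [hR.exponent_eq] at this
    exact congrArg Subtype.val this
  · obtain ⟨k, z, hz, e⟩ := a2 ⟨u, hu⟩ (fun h => uZ (cs _ h)) ⟨w, hw⟩ (Subtype.ext h)
    exact ⟨k, z, cs z hz, (congrArg Subtype.val e).symm⟩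

end Cfsg.Agent.G5.Rs
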