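import Cfsg.Agent.H77.LowC5

/-! The orthogonal subfield subgroups `SO₅(q)` are maximal in `SU₅(q)`. -/

set_option autoImplicit false
set_option linter.unusedSectionVars false

namespace Cfsg.Agent.G5

open Module Cfsg.Agent.H27 Cfsg.Agent.H10 Cfsg.Agent.H77 Cfsg.Geo

section

variable {F V : Type*} [Field F] [AddCommGroup V] [Module F V] [FiniteDimensional F V]
  {σ : F →+* F} {B : V →ₛₗ[σ] V →ₗ[F] F} {H : Subgroup (V ≃ₗ[F] V)}
  {K : Subfield F} {W : Type*} [AddCommGroup W] [Module K W] [FiniteDimensional K W]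
  {j : W →ₗ[K] V} {σ₀ : K →+* K} {B₀ : W →ₛₗ[σ₀] W →ₗ[K] K} {S : W → Prop}

theorem suo_delta (E : LC H B (-1) j B₀ S) {w z : V} {δ : F} (hE : Has H (Ef B (-1) w z δ))
    (w0 : w ≠ 0) (ww : B w w = 0) (wz : B w z = 0) (zz : B z z = 0) : σ δ = -δ := by
  obtain ⟨k, hk, hkf⟩ := hE
  obtain ⟨t, -, ht⟩ := E.rf.exists_perp (l := []) (a := w) (by rwa [mem_sp_nil]) 1
  have hs : ∀ x y, B y x = σ (B x y) := fun x y => by simpa using E.sym x y
  have h := E.iso k hk t t
  simp only [hkf, Ef, map_add, map_smulₛₗ, LinearMap.add_apply, LinearMap.smul_apply, ht, ww, wz,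
    zz, hs w t, hs w z, hs z t, smul_eq_mul, RingHom.id_apply, map_one, map_zero, map_mul,
    map_neg] at h
  linear_combination h

theorem suo_line (E : LC H B (-1) j B₀ S) (hA : RatS H B (-1) j B₀ S) (h2 : (2 : F) ≠ 0)
    (hK : ∀ d, d ∈ K ↔ σ d = d) {a b : W} (ha : S a) (hb : S b) (hab : B₀ a b = 0)
    (ha0 : a ≠ 0) (hn : b ∉ sp K [a]) {α β γ ε δ : F} (hβ : β ≠ 0) (hαβ : α / β ∉ K)
    (hE : Has H (Ef B (-1) (α • j a + β • j b) (γ • j a + ε • j b) δ)) : γ * β = ε * α := by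
  have hs : ∀ x y, B y x = σ (B x y) := fun x y => by simpa using E.sym x y
  have hb0 : b ≠ 0 := by rintro rfl; exact hn (Submodule.zero_mem _)
  have hp : ∀ (s t s' t' : F), B (s • j a + t • j b) (s' • j a + t' • j b) = 0 := fun s t s' t' => by
    simp [E.sf ha, E.sf hb, E.z hab, E.z' hab]
  have w0 : α • j a + β • j b ≠ 0 := fun h => E.rs.not_mem hn (mem_sp_one.2 ⟨-(α / β), by
    rw [← smul_right_inj hβ, smul_smul, eq_comm, ← sub_eq_zero, ← neg_eq_zero, ← h]
    match_scalars <;> field_simp <;> ring⟩)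
  have hδ := suo_delta E hE w0 (hp _ _ _ _) (hp _ _ _ _) (hp _ _ _ _)
  have key : ∀ u e, S u → u ≠ 0 → B₀ a u = 0 → B₀ b u = 0 → B₀ u e = 0 →
      σ (B (γ • j a + ε • j b) (j e)) * B (α • j a + β • j b) (j e) -
        B (γ • j a + ε • j b) (j e) * σ (B (α • j a + β • j b) (j e)) +
        δ * (B (α • j a + β • j b) (j e) * σ (B (α • j a + β • j b) (j e))) = 0 := by
    intro u e hu u0 h3 h4 h5
    have h6 := hA u hu u0 _ ((E.su_rat hu h5).act E.rf E.iso (E.sf hu) hE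
      (by simp [E.z h3, E.z h4]) (by simp [E.z h3, E.z h4])) e h5
    generalize α • j a + β • j b = w at h6 ⊢
    generalize γ • j a + ε • j b = z at h6 ⊢
    rw [hK, map_add (B (j e)), map_smul, map_smul, hs w, hs z] at h6
    simp only [smul_eq_mul, map_add, map_mul, map_neg, map_one, E.rf.inv, hδ] at h6
    apply mul_left_cancel₀ h2
    linear_combination -h6
  obtain ⟨e, e1, e2⟩ := E.ps.rf.exists_perp hn 1
  obtain ⟨f, f1, f2⟩ := E.ps.rf.exists_perp (not_mem_sp_one_symm hn ha0) 1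
  have e3 := e1 a (by simp)
  have f3 := f1 b (by simp)
  have aa := E.ps.self a ha
  have bb := E.ps.self b hb
  have ba := E.ps.rf.refl _ _ hab
  have m1 := key b f hb hb0 hab bb f3
  have m2 := key a e ha ha0 aa ba e3
  have m3 := key (a + b) (f - e) (E.ps.add a b ha hb hab)
    (fun h => hn (mem_sp_one.2 ⟨-1, by rw [neg_one_smul]; exact eq_neg_of_add_eq_zero_right h⟩))
    (by simp [aa, hab]) (by simp [ba, bb]) (by simp [e2, e3, f2, f3])
  simp only [map_add, map_sub, map_smulₛₗ, LinearMap.add_apply, LinearMap.smul_apply, E.o e2,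
    E.o f2, E.z e3, E.z f3, smul_eq_mul, mul_one, mul_zero, add_zero, zero_add, E.rf.inv, sub_zero,
    zero_sub, map_neg] at m1 m2 m3
  have hD : α * σ β - β * σ α ≠ 0 := fun h => hαβ ((hK _).2 (by
    rw [map_div₀, div_eq_div_iff ((map_ne_zero σ).2 hβ) hβ]; linear_combination -h))
  apply mul_right_cancel₀ hD
  linear_combination -(α * β) * (m3 - m1 - m2) - β ^ 2 * m1 - α ^ 2 * m2

/-- The argument for extensions of degree two in dimension five. -/
theorem suo_nr (E : LC H B (-1) j B₀ S) (hA : RatS H B (-1) j B₀ S) (h2 : (2 : F) ≠ 0)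
    (hK : ∀ d, d ∈ K ↔ σ d = d) (hn : 4 < finrank K W)
    (hS : ∀ x, B₀ x x = 0 → S x) (hY : ∀ a b, ∃ y, S y ∧ y ≠ 0 ∧ B₀ a y = 0 ∧ B₀ b y = 0)
    (hd : ∀ w, ∃ x y, w ∈ sp F [j x, j y]) {g : V ≃ₗ[F] V} (hg : g ∈ H) : NR j g := by
  refine E.ps.nr_of_rat E.rs fun v hv hv0 => ?_
  by_contra hirr
  have hww : B (g (j v)) (g (j v)) = 0 := by rw [E.iso g hg, E.sf hv]
  have aux : ∀ r, ∃ z δ, Has H (Ef B (-1) (g (j v)) z δ) ∧ B (g (j v)) z = 0 ∧ B z r = 0 ∧
      z ∉ sp F [g (j v)] := by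
    intro r
    obtain ⟨r₁, r₂, hr⟩ := hd (g⁻¹ r)
    obtain ⟨x, h1, h2⟩ := exists_perp_not_mem B₀ [v, r₁, r₂] [v] (by simpa using hn)
    obtain ⟨h3, δ, h4⟩ := (E.su_rat hv (h1 v (by simp))).map hg (E.iso g hg)
    refine ⟨_, δ, h4, h3, E.rf.refl _ _ ?_, fun hm => E.rs.not_mem h2 ?_⟩
    · rw [← le_apply_inv g r, E.iso g hg]
      exact E.perp_sp (l := [r₁, r₂]) (fun t ht => h1 t (by simp [ht])) hr
    · obtain ⟨d, hd⟩ := mem_sp_one.1 hm
      exact mem_sp_one.2 ⟨d, g.injective (by rw [hd, map_smul])⟩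
  obtain ⟨w₁, w₂, hw⟩ := hd (g (j v))
  set w := g (j v)
  obtain ⟨α, β, hw'⟩ := mem_sp_two.mp hw
  have hα : α ≠ 0 := by rintro rfl; exact hirr ⟨β, w₂, by simpa using hw'⟩
  have hβ : β ≠ 0 := by rintro rfl; exact hirr ⟨α, w₁, by simpa using hw'⟩
  have hαβ : α / β ∉ K := fun h => hirr ⟨β, (⟨_, h⟩ : K) • w₁ + w₂, by
    rw [hw', map_add, j_smul, smul_add, smul_smul, mul_div_cancel₀ _ hβ]⟩
  have hw₁ : w₁ ≠ 0 := by rintro rfl; exact hirr ⟨β, w₂, by simpa using hw'⟩
  have hw₂ : w₂ ∉ sp K [w₁] := fun hm => by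
    obtain ⟨d, rfl⟩ := mem_sp_one.mp hm
    exact hirr ⟨α + β * d, w₁, by rw [hw', j_smul]; module⟩
  have hw2 : j w₂ = β⁻¹ • w - (α / β) • j w₁ := by
    rw [hw']; match_scalars <;> field_simp <;> ring
  by_cases hc : B (j w₁) w = 0
  · have hc' : B (j w₂) w = 0 := by simp [hw2, hww, hc]
    have key : ∀ x, B (j x) w = 0 → B₀ x w₁ = 0 ∧ B₀ x w₂ = 0 := by
      intro x hx
      rw [hw', map_add, map_smul, map_smul, smul_eq_mul, smul_eq_mul] at hx
      have h1 : B (j x) (j w₁) = 0 := by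
        by_contra h1
        refine hαβ ?_
        rw [show α / β = -B (j x) (j w₂) / B (j x) (j w₁) by field_simp; linear_combination hx]
        exact K.div_mem (K.neg_mem (E.mem _ _)) (E.mem _ _)
      exact ⟨E.z_of h1, E.z_of (by simpa [h1, hβ] using hx)⟩
    obtain ⟨z, δ, h1, h2', h3, h4⟩ := aux (j w₁)
    by_cases hm : z ∈ sp F [j w₁, j w₂]
    · obtain ⟨γ, ε, rfl⟩ := mem_sp_two.1 hm
      have := suo_line E hA h2 hK (hS _ (key _ hc).1) (hS _ (key _ hc').2) (key _ hc).2 hw₁ hw₂ hβ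
        hαβ (hw' ▸ h1)
      refine h4 (mem_sp_one.2 ⟨ε / β, ?_⟩)
      rw [hw']
      match_scalars <;> field_simp
      linear_combination this
    exact hαβ (E.line_rat hA (hS _ (key _ hc).1) (hS _ (key _ hc').2) (key _ hc).2 hw₁ hw₂
      (hw' ▸ h1) h3 (by simp [hw2, h3, E.rf.refl _ _ h2']) hm)
  obtain ⟨y, hy, hy0, h1, h2⟩ := hY w₁ w₂
  have hwy : B w (j y) = 0 := E.perp_sp (l := [w₁, w₂]) (by simp [h1, h2]) hw
  have hc1 : B w (j w₁) ≠ 0 := E.rf.refl_ne hc
  have h4 : y ∉ sp K [w₁, w₂] := fun hm => by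
    obtain ⟨γ, δ, h3⟩ := mem_sp_two.mp hm
    have h5 := congrArg j h3
    rw [map_add, j_smul, j_smul, hw2] at h5
    have h6 := hwy
    rw [h5] at h6
    simp only [map_add, map_smul, map_sub, hww, smul_eq_mul] at h6
    have h7 : (γ : F) = δ * (α / β) := by
      apply mul_right_cancel₀ hc1; linear_combination h6
    have hδ : (δ : F) ≠ 0 := by
      intro h0
      rw [h0, zero_mul] at h7
      exact E.rs.ne_zero hy0 (by simp [h5, h0, h7])
    exact hαβ (by rw [show α / β = γ / δ by rw [h7]; field_simp]; exact K.div_mem γ.2 δ.2)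
  obtain ⟨z, δ, hE, h5, h6, h7⟩ := aux (j y)
  obtain ⟨lam, hl, h10⟩ : ∃ lam : F, lam ≠ 0 ∧ Su H B (-1) (j y) (lam • w) := by
    by_cases hm : z ∈ sp F [w, j y]
    · obtain ⟨μ, l, rfl⟩ := mem_sp_two.1 hm
      have l0 : l ≠ 0 := by rintro rfl; exact h7 (mem_sp_one.2 ⟨μ, by simp⟩)
      by_cases h8 : μ - σ μ + δ = 0
      · refine ⟨-σ l, neg_ne_zero.2 ((map_ne_zero σ).2 l0), by simp [E.rf.refl _ _ hwy], 0,
          hE.congr fun t => ?_⟩
        simp only [Ef, map_add, map_smulₛₗ, LinearMap.add_apply, LinearMap.smul_apply, map_neg,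
          E.rf.inv, smul_eq_mul]
        match_scalars
        · ring
        · linear_combination B w t * h8
        · ring
      obtain ⟨x, h9, h10⟩ := E.exists_perp_ne' (l := [y]) (p := w) fun hm => by
        obtain ⟨d, hd⟩ := mem_sp_one.1 hm
        exact hc (by rw [hd, map_smul, E.z h1, smul_zero])
      have h11 := ((E.su_rat hy (h9 y (by simp))).act E.rf E.iso (E.sf hy) hE hwy h6).sub E.rf
        (E.sf hy) (su_self (E.sf hy) (B w (j x) * l))
      refine ⟨_, mul_ne_zero h8 h10, ?_⟩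
      convert h11 using 1
      simp only [map_add, map_smulₛₗ, LinearMap.add_apply, LinearMap.smul_apply,
        E.z (h9 y (by simp)), smul_eq_mul]
      module
    obtain ⟨x, h8, h9⟩ := E.exists_perp_ne' (l := [y, w₁, w₂]) (p := z) fun hm' => by
      obtain ⟨a, b, d, h8⟩ := mem_sp_three.mp hm'
      rw [hw2] at h8
      rw [h8] at h5
      simp only [map_add, map_smul, map_sub, hww, hwy, smul_eq_mul] at h5
      have h9 : b = d * (α / β) := by
        apply mul_right_cancel₀ hc1; linear_combination h5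
      exact hm (mem_sp_two.mpr ⟨d * β⁻¹, a, by rw [h8, h9]; module⟩)
    have h10 := (E.su_rat hy (h8 y (by simp))).act E.rf E.iso (E.sf hy) hE hwy h6
    rw [E.perp_sp (l := [w₁, w₂]) (fun t ht => h8 t (by simp [ht])) hw, zero_smul, zero_add,
      mul_zero, add_zero] at h10
    exact ⟨_, mul_ne_zero E.c_ne h9, h10⟩
  obtain ⟨e, h11, h12⟩ := E.ps.rf.exists_perp h4 1
  obtain ⟨d, t, ht⟩ := E.rs.rat_of_dual E.rf E.ps.rf one_ne_zero (by simpa using E.hB) one_ne_zero
    (w := lam • w) fun t => by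
      have := hA y hy hy0 _ h10 (t - B₀ y t • e) (by simp [h12])
      have h13 := K.mul_mem (K.neg_mem E.c_mem) (E.sig_mem this)
      rw [← E.sym, map_sub, map_sub, dual_j_smul,
        E.perp_sp (l := [w₁, w₂]) h11 (Submodule.smul_mem _ _ hw)] at h13
      simpa using h13
  exact hirr ⟨lam⁻¹ * d, t, by rw [mul_smul, ← ht, smul_smul, inv_mul_cancel₀ hl, one_smul]⟩

end

theorem su_o5 {F : Type*} [Field F] [Fintype F] {n q : ℕ} (hF : Fintype.card F = q ^ 2)
    (hn : 5 ≤ n) (hodd : Odd q)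
    (F₀ : Subfield F) (P : GL (Fin n) F) (hcard : Fintype.card F = Nat.card F₀ ^ 2)
    (hP : IsFormRationalStructure (hermForm n F q) F₀ 1 P) :
    IsMaximalIn (GU n F q ⊓ specialLinear (Fin n) F)
      (subfieldSubgroup F₀ P ⊓ (GU n F q ⊓ specialLinear (Fin n) F)) := by
  haveI : Fact (Fintype.card F = q ^ 2) := ⟨hF⟩
  have hd := subring_dichotomy Nat.prime_two hcard
  have h2 : (2 : F) ≠ 0 := two_ne_zero_of_odd_card (hF ▸ hodd.pow)
  have hfix : ∀ c ∈ F₀, H10.cj F q c = c := fun c hc => by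
    haveI := Fintype.ofFinite F₀
    have hq : Fintype.card F₀ = q := by
      rw [← Nat.card_eq_fintype_card]
      exact Nat.pow_left_injective two_ne_zero (hcard.symm.trans hF)
    exact congrArg Subtype.val (hq ▸ FiniteField.pow_card (⟨c, hc⟩ : F₀))
  obtain ⟨θ, hθ⟩ := exists_cj_ne (F := F) (q := q)
  have hK' : ∀ c, c ∈ F₀ ↔ H10.cj F q c = c := fun c => ⟨hfix c,
    (hd ((H10.cj F q).eqLocus (RingHom.id F)) hfix).resolve_right (fun h => hθ (h θ)) c⟩
  obtain ⟨ζ, hζ0, hζ⟩ := exists_skew (F := F) (q := q)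
  have hS := skH_su (n := n) (by omega) hζ0 hζ
  have hK : ∀ x y, suB n q (1 : F) (jP F₀ P x) (jP F₀ P y) ∈ F₀ := fun x y =>
    hP _ _ (fun i => (y i).2) fun i => (x i).2
  let B₁ := formK (jP F₀ P) (suB n q (1 : F)) (RingHom.id F₀) (fun d => hfix d d.2) hK
  have hB₁ : ∀ x y, (B₁ x y : F) = hermForm n F q (jP F₀ P y) (jP F₀ P x) := fun x y => one_mul _
  have hs : ∀ x y, suB n q (2 : F) y x = -(-1) * H10.cj F q (suB n q (2 : F) x y) := fun x y => by
    rw [suB_apply, suB_apply, map_mul, cj_herm, map_ofNat]; ring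
  have hR : RF (suB n q (2 : F)) := ⟨H10.cj_cj,
    fun x h => eq_zero_of_herm_right (q := q) fun y => (suB_eq_zero h2).1 (h y),
    fun x y h => by rw [hs, h, map_zero, mul_zero]⟩
  have hB : ∀ x y, suB n q (2 : F) (jP F₀ P x) (jP F₀ P y) =
      QuadraticMap.polarBilin (LinearMap.BilinMap.toQuadraticMap B₁) x y := fun x y => by
    rw [QuadraticMap.polarBilin_apply_apply, LinearMap.BilinMap.polar_toQuadraticMap,
      Subfield.coe_add, ← hfix _ (B₁ y x).2, hB₁, hB₁, cj_herm, suB_apply, two_mul]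
  have hn' : 4 < finrank F₀ (Fin n → F₀) := by simp; omega
  have hP := ps_quad (rf_of_rs (σ₀ := RingHom.id F₀) (rs_jP F₀ P) hR (fun _ => rfl) hB) hn'
  have hG : GG (suB n q (2 : F)) = GG (suB n q ζ) := by
    rw [GG, GG, Iso_smul (B := suB n q (2 : F)) (div_ne_zero hζ0 h2) (B' := suB n q ζ) fun x y => by
      rw [suB_apply, suB_apply]; field_simp]
  have E := lc_GG (rs_jP F₀ P) hR hP hB (Or.inr rfl) hs
  refine isMaximalIn_subfield (comap_GG_su h2) fun N hN => E.maximal (by omega) hN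
    (subfield_ne_top Nat.prime_two hcard) (fun u hu x hx => ⟨hx, -suB n q (2 : F) x x / 2,
      has_Ef_GG' (Or.inr rfl) H10.cj_cj hs (E.sf hu) hx (by
        have := hs x x
        rw [map_div₀, map_neg, map_ofNat]
        field_simp
        linear_combination -this)⟩)
    fun H _ E' _ => (E'.dich hn' hd).imp (fun h g hg => suo_nr E' h h2 hK' hn'
      (fun x hx => by
        rw [QuadraticMap.polarBilin_apply_apply, polar_self_eq] at hx
        exact (mul_eq_zero.mp hx).resolve_left fun h0 => h2 (congrArg Subtype.val h0))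
      (fun a b => by
        simpa [mem_sp_nil, and_assoc, and_comm, and_left_comm] using exists_singular_perp
          (LinearMap.BilinMap.toQuadraticMap B₁) [a, b] [] (by simp; omega))
      ((rs_jP F₀ P).deg_two (fix_decomp H10.cj_cj hθ hfix hd)) hg) fun h => ?_
  rw [hG]
  refine hS.gen H fun v hv t ht => ?_
  have := E'.all_tv h (fun u hu => E'.tv_of_full h θ hu)
    (norm_span H10.cj_cj (by rw [neg_one_mul, neg_add_eq_sub]; exact sub_ne_zero.mpr hθ)
      (by rw [map_add, map_mul, map_neg, map_one, H10.cj_cj]; ring))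
    (v := v) ((suB_eq_zero h2).mpr ((suB_eq_zero hζ0).mp hv)) (t := t * ζ / 2)
    (by rw [map_div₀, map_mul, ht, hζ, map_ofNat]; ring)
  convert this using 1
  ext x
  simp only [LinearMap.comp_apply, LinearMap.smul_apply, suB_apply, smul_eq_mul]
  field_simp

end Cfsg.Agent.G5
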